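import Cfsg.Agent.Lib.TwMult.Cubic

/-!
Invariant linear and bilinear forms on the module `2 ⊗ 2^F ⊗ 2^{F²}` over the fixed field of `F`.
-/

set_option autoImplicit false
set_option linter.unusedSectionVars false
set_option linter.unusedSimpArgs false

namespace CfsgLib.TwMult.Cubic

variable {K : Type*} [Field K] (Fr : K →+* K)

/-- The fixed subgroup. -/
def fixA : AddSubgroup K where
  carrier := {x | Fr x = x}
  zero_mem' := map_zero Fr
  add_mem' := fun {a b} ha hb => by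
    show Fr (a + b) = a + b
    rw [map_add, show Fr a = a from ha, show Fr b = b from hb]
  neg_mem' := fun {a} ha => by
    show Fr (-a) = -a
    rw [map_neg, show Fr a = a from ha]

/-- The coordinates of the module. -/
abbrev Coord : Type _ := ↥(fixA Fr) × K × K × ↥(fixA Fr)

variable {Fr} {q : ℕ} (P : Frob Fr q)

/-- First coordinate line. -/
def cE : ↥(fixA Fr) →+ Coord Fr := AddMonoidHom.mk' (fun r => (r, 0, 0, 0)) fun a b => by simp
/-- Second coordinate line. -/
def cA : K →+ Coord Fr := AddMonoidHom.mk' (fun t => (0, t, 0, 0)) fun a b => by simp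
/-- Third coordinate line. -/
def cB : K →+ Coord Fr := AddMonoidHom.mk' (fun s => (0, 0, s, 0)) fun a b => by simp
/-- Fourth coordinate line. -/
def cC : ↥(fixA Fr) →+ Coord Fr := AddMonoidHom.mk' (fun v => (0, 0, 0, v)) fun a b => by simp

theorem decomp (x : Coord Fr) : x = cE x.1 + cA x.2.1 + cB x.2.2.1 + cC x.2.2.2 := by
  simp [cE, cA, cB, cC]

include P

theorem fixed_last (u : K) (x : Coord Fr) :
    Fr ((x.2.2.2 : K) + tr Fr (u * x.2.2.1) + tr Fr (x.2.1 * (Fr u * Fr (Fr u))) + (x.1 : K) * nm Fr u) =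
      (x.2.2.2 : K) + tr Fr (u * x.2.2.1) + tr Fr (x.2.1 * (Fr u * Fr (Fr u))) + (x.1 : K) * nm Fr u := by
  simp only [map_add, map_mul, show Fr (x.2.2.2 : K) = x.2.2.2 from x.2.2.2.2, show Fr (x.1 : K) = x.1 from x.1.2,
    tr_fixed P, nm_fixed P]

/-- The unipotent operator. -/
def actU (u : K) (x : Coord Fr) : Coord Fr :=
  (x.1, x.2.1 + (x.1 : K) * u, x.2.2.1 + gp Fr u x.2.1 + (x.1 : K) * (Fr u * Fr (Fr u)),
    ⟨(x.2.2.2 : K) + tr Fr (u * x.2.2.1) + tr Fr (x.2.1 * (Fr u * Fr (Fr u))) + (x.1 : K) * nm Fr u,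
      fixed_last P u x⟩)

omit P in
/-- The Weyl operator. -/
def actN (x : Coord Fr) : Coord Fr := (-x.2.2.2, x.2.2.1, -x.2.1, x.1)

/-- `Tr(v w) = v` for a trace-one element `w`. -/
theorem tr_smul {w : K} (hw : tr Fr w = 1) (v : ↥(fixA Fr)) : tr Fr ((v : K) * w) = v := by
  have : tr Fr ((v : K) * w) = (v : K) * tr Fr w := by
    simp only [tr, map_mul, show Fr (v : K) = v from v.2]; ring
  rw [this, hw, mul_one]

theorem U_E (u : K) (r : ↥(fixA Fr)) :
    actU P u (cE r) = cE r + cA ((r : K) * u) + cB ((r : K) * (Fr u * Fr (Fr u))) +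
      cC ⟨(r : K) * nm Fr u, by show Fr _ = _; rw [map_mul, nm_fixed P, show Fr (r : K) = r from r.2]⟩ := by
  simp [actU, cE, cA, cB, cC, gp, tr, Prod.ext_iff]

theorem U_A (u t : K) :
    actU P u (cA t) = cA t + cB (gp Fr u t) +
      cC ⟨tr Fr (t * (Fr u * Fr (Fr u))), tr_fixed P _⟩ := by
  simp [actU, cE, cA, cB, cC, tr, Prod.ext_iff]

theorem U_B (u s : K) : actU P u (cB s) = cB s + cC ⟨tr Fr (u * s), tr_fixed P _⟩ := by
  simp [actU, cE, cA, cB, cC, gp, tr, Prod.ext_iff]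

theorem U_C (u : K) (v : ↥(fixA Fr)) : actU P u (cC v) = cC v := by
  simp [actU, cE, cA, cB, cC, gp, tr, Prod.ext_iff]

theorem N_lines (r : ↥(fixA Fr)) (t s : K) (v : ↥(fixA Fr)) :
    actN (cE r) = cC r ∧ actN (cA (Fr := Fr) t) = cB (-t) ∧ actN (cB (Fr := Fr) s) = cA s ∧
      actN (cC v) = cE (-v) := by
  simp [actN, cE, cA, cB, cC]

variable {Z : Type*} [AddCommGroup Z]

/-- An invariant linear form vanishes. -/
theorem form_eq_zero (f : Coord Fr →+ Z) (hU : ∀ u x, f (actU P u x) = f x) (hN : ∀ x, f (actN x) = f x)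
    (x : Coord Fr) : f x = 0 := by
  obtain ⟨w, hw⟩ := exists_tr_one P
  have hC : ∀ v, f (cC v) = 0 := fun v => by
    have := hU 1 (cB ((v : K) * w))
    rw [U_B, map_add, add_eq_left] at this
    simpa [one_mul, tr_smul P hw v] using this
  have hB : ∀ s, f (cB s) = 0 := fun s => eq_zero_of_gp P (f.comp cB) (fun u t => by
    have := hU u (cA t)
    rw [U_A, map_add, map_add, hC, add_zero, add_eq_left] at this
    exact this) s
  have hA : ∀ t, f (cA t) = 0 := fun t => by
    have := hN (cB t)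
    rwa [(N_lines P 0 0 t 0).2.2.1, hB] at this
  have hE : ∀ r, f (cE r) = 0 := fun r => by
    have := hN (cE r)
    rwa [(N_lines P r 0 0 0).1, hC, eq_comm] at this
  rw [decomp x, map_add, map_add, map_add, hE, hA, hB, hC]
  simp

/-- The zero pairs of an invariant bilinear form, one side. -/
theorem pair_zero (f : Coord Fr →+ Coord Fr →+ Z) (hU : ∀ u x y, f (actU P u x) (actU P u y) = f x y) :
    (∀ v v', f (cC v) (cC v') = 0) ∧ (∀ s v, f (cB s) (cC v) = 0) ∧ ∀ t v, f (cA t) (cC v) = 0 := by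
  obtain ⟨w, hw⟩ := exists_tr_one P
  have hCC : ∀ v v', f (cC v) (cC v') = 0 := fun v v' => by
    have := hU 1 (cB ((v : K) * w)) (cC v')
    rw [U_B, U_C, map_add, AddMonoidHom.add_apply, add_eq_left] at this
    simpa [one_mul, tr_smul P hw v] using this
  have hBC : ∀ s v, f (cB s) (cC v) = 0 := fun s v => eq_zero_of_gp P ((f.flip (cC v)).comp cB) (fun u t => by
    have := hU u (cA t) (cC v)
    rw [U_A, U_C, map_add, map_add, AddMonoidHom.add_apply, AddMonoidHom.add_apply, hCC, add_zero,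
      add_eq_left] at this
    exact this) s
  refine ⟨hCC, hBC, fun t v => ?_⟩
  let one : ↥(fixA Fr) := ⟨1, map_one Fr⟩
  have := hU t (cE one) (cC v)
  rw [U_E, U_C, map_add, map_add, map_add, AddMonoidHom.add_apply, AddMonoidHom.add_apply,
    AddMonoidHom.add_apply, hBC, hCC, add_zero, add_zero, add_eq_left] at this
  simpa [one] using this

/-- The values of an invariant bilinear form lie in any subgroup containing its values on the extreme lines. -/
theorem pair_mem (f : Coord Fr →+ Coord Fr →+ Z) (hU : ∀ u x y, f (actU P u x) (actU P u y) = f x y)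
    (hN : ∀ x y, f (actN x) (actN y) = f x y) (S : AddSubgroup Z)
    (h1 : ∀ v, f (cE ⟨1, map_one Fr⟩) (cC v) ∈ S) (h2 : ∀ v, f (cC v) (cE ⟨1, map_one Fr⟩) ∈ S)
    (x y : Coord Fr) : f x y ∈ S := by
  obtain ⟨w, hw⟩ := exists_tr_one P
  obtain ⟨hCC, hBC, hAC⟩ := pair_zero P f hU
  obtain ⟨-, hCB, hCA⟩ := pair_zero P f.flip fun u x y => hU u y x
  have hCB' : ∀ v s, f (cC v) (cB s) = 0 := fun v s => hCB s v
  have hCA' : ∀ v t, f (cC v) (cA t) = 0 := fun v t => hCA t v
  have hEE : ∀ r r', f (cE r) (cE r') = 0 := fun r r' => by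
    rw [← hN, (N_lines P r 0 0 0).1, (N_lines P r' 0 0 0).1, hCC]
  have hEB : ∀ r s, f (cE r) (cB s) = 0 := fun r s => by
    rw [← hN, (N_lines P r 0 0 0).1, (N_lines P 0 0 s 0).2.2.1, hCA']
  have hBE : ∀ r s, f (cB s) (cE r) = 0 := fun r s => by
    rw [← hN, (N_lines P r 0 0 0).1, (N_lines P 0 0 s 0).2.2.1, hAC]
  have hEA : ∀ r t, f (cE r) (cA t) = 0 := fun r t => by
    rw [← hN, (N_lines P r 0 0 0).1, (N_lines P 0 t 0 0).2.1, hCB']
  have hAE : ∀ r t, f (cA t) (cE r) = 0 := fun r t => by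
    rw [← hN, (N_lines P r 0 0 0).1, (N_lines P 0 t 0 0).2.1, hBC]
  have hBB : ∀ s s', f (cB s) (cB s') = 0 := fun s s' => eq_zero_of_gp P ((f.flip (cB s')).comp cB)
    (fun u t => by
      have := hU u (cA t) (cB s')
      rw [U_A, U_B] at this
      simp only [map_add, AddMonoidHom.add_apply, hAC, hBC, hCC, hCB', add_zero, add_eq_left] at this
      exact this) s
  have hAA : ∀ t t', f (cA t) (cA t') = 0 := fun t t' => by
    rw [← hN, (N_lines P 0 t 0 0).2.1, (N_lines P 0 t' 0 0).2.1, hBB]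
  have key : ∀ (g : Coord Fr →+ Coord Fr →+ Z), (∀ u x y, g (actU P u x) (actU P u y) = g x y) →
      (∀ s v, g (cB s) (cC v) = 0) → (∀ v v', g (cC v) (cC v') = 0) →
      (∀ r s, g (cE r) (cB s) = 0) → (∀ s s', g (cB s) (cB s') = 0) → (∀ v s, g (cC v) (cB s) = 0) →
      (∀ v, g (cE ⟨1, map_one Fr⟩) (cC v) ∈ S) →
      (∀ r v, g (cE r) (cC v) ∈ S) ∧ ∀ t s, g (cA t) (cB s) ∈ S := by
    intro g gU gBC gCC gEB gBB gCB g1
    have rel : ∀ (r : ↥(fixA Fr)) u s,
        g (cE r) (cC ⟨tr Fr (u * s), tr_fixed P _⟩) + g (cA ((r : K) * u)) (cB s) +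
          g (cA ((r : K) * u)) (cC ⟨tr Fr (u * s), tr_fixed P _⟩) = 0 := fun r u s => by
      have := gU u (cE r) (cB s)
      rw [U_E, U_B] at this
      simp only [map_add, AddMonoidHom.add_apply, gBC, gCC, gEB, gBB, gCB, add_zero, zero_add] at this
      rw [← this]; abel
    have gAC : ∀ t v, g (cA t) (cC v) = 0 := (pair_zero P g gU).2.2
    have rel' : ∀ (r : ↥(fixA Fr)) u s,
        g (cA ((r : K) * u)) (cB s) = -g (cE r) (cC ⟨tr Fr (u * s), tr_fixed P _⟩) := fun r u s => by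
      have := rel r u s
      rw [gAC, add_zero, add_comm] at this
      exact eq_neg_of_add_eq_zero_left this
    have hAB : ∀ t s, g (cA t) (cB s) ∈ S := fun t s => by
      have := rel' ⟨1, map_one Fr⟩ t s
      rw [show ((⟨1, map_one Fr⟩ : ↥(fixA Fr)) : K) * t = t from one_mul t] at this
      rw [this]
      exact neg_mem (g1 _)
    refine ⟨fun r v => ?_, hAB⟩
    have := rel' r 1 ((v : K) * w)
    have e : (⟨tr Fr (1 * ((v : K) * w)), tr_fixed P _⟩ : ↥(fixA Fr)) = v := by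
      apply Subtype.ext
      show tr Fr (1 * ((v : K) * w)) = v
      rw [one_mul, tr_smul P hw v]
    rw [e] at this
    rw [← neg_mem_iff, ← this]
    exact hAB _ _
  obtain ⟨hEC, hAB⟩ := key f hU hBC hCC hEB hBB hCB' h1
  obtain ⟨hCE, hBA⟩ := key f.flip (fun u x y => hU u y x) (fun s v => hCB' v s) (fun v v' => hCC v' v)
    (fun r s => hBE r s) (fun s s' => hBB s' s) (fun v s => hBC s v) h2
  have hCE' : ∀ r v, f (cC v) (cE r) ∈ S := hCE
  have hBA' : ∀ t s, f (cB s) (cA t) ∈ S := hBA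
  rw [decomp x, decomp y]
  simp only [map_add, AddMonoidHom.add_apply]
  repeat' apply add_mem
  all_goals
    simp only [hEE, hEA, hAE, hEB, hBE, hAA, hBB, hCC, hAC, hBC, hCA', hCB', zero_mem, hEC, hAB, hCE', hBA']

end CfsgLib.TwMult.Cubic
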