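import Cfsg.Agent.Lib.TwMult.D4Elems
import Cfsg.Agent.Lib.TwMult.CubicForms
import Cfsg.Agent.Lib.SchurMult.SL2
import Cfsg.Agent.Lib.SchurMult.Reduce
import Cfsg.Agent.Lib.ChevMult.UCE

/-!
No stem extension of ³D₄(q) has a kernel of order divisible by the characteristic: the preimage of the parabolic
subgroup of the short root splits over the kernel.
-/

set_option autoImplicit false
set_option maxRecDepth 100000
set_option maxHeartbeats 1000000
set_option linter.unusedSectionVars false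
set_option linter.unusedSimpArgs false
set_option linter.style.haveILetI false

namespace CfsgLib.TwMult

open Cfsg.Lie CfsgLib.Chevalley CfsgLib.InvCentralizers.AutChev CfsgLib.InvCentralizers.AutTwisted
open CfsgLib.Twisted (fullD4)
open CfsgLib.SchurMult
open scoped MatrixGroups commutatorElement

universe u

/-- Homomorphisms from a perfect group without stem extensions lift through central extensions. -/
theorem exists_hom_lift {L G Γ : Type u} [Group L] [Finite L] [Group G] [Group Γ] [Finite Γ]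
    (hperf : commutator L = ⊤)
    (htriv : Cfsg.HasCyclicSchurMultiplier L 1) (σ : Γ →* G) (hs : Function.Surjective σ)
    (hc : σ.ker ≤ Subgroup.center Γ) (ψ : L →* G) : ∃ φ : L →* Γ, ∀ x, σ (φ x) = ψ x := by
  classical
  let P : Subgroup (Γ × L) := (σ.comp (MonoidHom.fst Γ L)).eqLocus (ψ.comp (MonoidHom.snd Γ L))
  let ρ : P →* L := (MonoidHom.snd Γ L).comp P.subtype
  have hρs : Function.Surjective ρ := fun d => by
    obtain ⟨g, hg⟩ := hs (ψ d)
    exact ⟨⟨(g, d), hg⟩, rfl⟩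
  have hρc : ρ.ker ≤ Subgroup.center P := by
    intro x hx
    have h1 : ((x : Γ × L)).2 = 1 := hx
    have h2 : ((x : Γ × L)).1 ∈ σ.ker := by
      have h3 : σ (x : Γ × L).1 = ψ (x : Γ × L).2 := x.2
      rw [MonoidHom.mem_ker, h3, h1, map_one]
    rw [Subgroup.mem_center_iff]
    intro y
    refine Subtype.ext (Prod.ext (Subgroup.mem_center_iff.1 (hc h2) (y : Γ × L).1) ?_)
    show (y : Γ × L).2 * (x : Γ × L).2 = (x : Γ × L).2 * (y : Γ × L).2
    rw [h1, mul_one, one_mul]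
  obtain ⟨hsurj, hDperf⟩ := CfsgLib.ChevMult.perfect_commutator ρ hρs hρc hperf
  set ρ' := ρ.comp (commutator P).subtype
  have hstem : Cfsg.IsStemExtension ρ' := ⟨hsurj, fun x hx => by
    rw [Subgroup.mem_center_iff]
    intro y
    exact Subtype.ext (Subgroup.mem_center_iff.1 (hρc (show (x : P) ∈ ρ.ker from hx)) (y : P)),
    by rw [hDperf]; exact le_top⟩
  obtain ⟨π, hπ⟩ := htriv.2 _ ρ' hstem
  have hker : ρ'.ker = ⊥ := by
    refine eq_bot_iff.2 fun x hx => Subgroup.mem_bot.2 ?_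
    obtain ⟨a, ha⟩ := hπ ⟨x, hx⟩
    rw [Subsingleton.elim a 1, map_one] at ha
    exact (congrArg Subtype.val ha).symm
  let e := MulEquiv.ofBijective ρ' ⟨(MonoidHom.ker_eq_bot_iff ρ').1 hker, hsurj⟩
  refine ⟨((MonoidHom.fst Γ L).comp P.subtype).comp ((commutator P).subtype.comp e.symm.toMonoidHom),
    fun x => ?_⟩
  have h1 : σ (((e.symm x : commutator P) : P) : Γ × L).1 = ψ (((e.symm x : commutator P) : P) : Γ × L).2 :=
    ((e.symm x : commutator P) : P).2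
  show σ (((e.symm x : commutator P) : P) : Γ × L).1 = ψ x
  rw [h1, show (((e.symm x : commutator P) : P) : Γ × L).2 = x from e.apply_symm_apply x]

theorem slX_add' {F : Type*} [Field F] (a b : F) : (slX a : SL(2, F)) * slX b = slX (a + b) := by
  apply Subtype.ext
  simp [slX_coe, Matrix.mul_fin_two, add_comm]

theorem sl2_perfect {F : Type*} [Field F] [Finite F] (h : 3 < Nat.card F) : commutator SL(2, F) = ⊤ := by
  classical
  haveI := Fintype.ofFinite F
  obtain ⟨c, hc⟩ : ∃ c : Fˣ, ((c : F) * c) ≠ 1 := by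
    by_contra hcon
    simp only [not_exists, not_not] at hcon
    have hsub : Nat.card Fˣ ≤ 2 := by
      rw [Nat.card_eq_fintype_card, ← Finset.card_univ]
      refine le_trans (Finset.card_le_card (t := {1, -1}) fun x _ => ?_) Finset.card_le_two
      rcases mul_self_eq_one_iff.1 (hcon x) with e | e
      · exact Finset.mem_insert.2 (Or.inl (Units.ext e))
      · exact Finset.mem_insert.2 (Or.inr (Finset.mem_singleton.2 (Units.ext (by simp [e]))))
    rw [Nat.card_units] at hsub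
    omega
  have hX : ∀ t : F, slX t ∈ commutator SL(2, F) := by
    intro t
    have h1 : (c : F) * c - 1 ≠ 0 := sub_ne_zero.2 hc
    have hd : ∀ s : F, slD c * slX s = slX ((c : F) * c * s) * slD c := by
      intro s
      apply Subtype.ext
      simp only [slD_coe, Matrix.SpecialLinearGroup.coe_mul, slX_coe]
      ext i j
      fin_cases i <;> fin_cases j <;> simp [Matrix.mul_apply, Fin.sum_univ_two]
      field_simp
    have e : ⁅slD c, slX (t / ((c : F) * c - 1))⁆ = slX t := by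
      rw [commutatorElement_def, hd, mul_inv_cancel_right, mul_inv_eq_iff_eq_mul, slX_add']
      congr 1
      linear_combination div_mul_cancel₀ t h1
    rw [← e, commutator_def]
    exact Subgroup.commutator_mem_commutator (Subgroup.mem_top _) (Subgroup.mem_top _)
  have hY : ∀ t : F, slY t ∈ commutator SL(2, F) := by
    intro t
    have e : slY t = slW * slX (-t) * (slW : SL(2, F))⁻¹ := by rw [slW_conj_slX, neg_neg, mul_inv_cancel_right]
    rw [e]
    exact (inferInstance : (commutator SL(2, F)).Normal).conj_mem _ (hX _) _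
  rw [eq_top_iff, ← CfsgLib.Twisted.sl_gen, Subgroup.closure_le]
  rintro g (⟨t, rfl⟩ | ⟨t, rfl⟩)
  exacts [hX t, hY t]

/-- A set of matrices closed under products containing `slX` and `slW` is everything. -/
theorem sl2_induction {F : Type*} [Field F] [Finite F] {p : SL(2, F) → Prop} (h1 : p 1)
    (hX : ∀ t, p (slX t)) (hW : p slW) (hmul : ∀ a b, p a → p b → p (a * b)) (g : SL(2, F)) : p g := by
  let S : Submonoid SL(2, F) := { carrier := {g | p g}, one_mem' := h1, mul_mem' := fun {a b} => hmul a b }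
  haveI : Finite SL(2, F) := inferInstance
  have hinv : ∀ g : SL(2, F), g ∈ S → g⁻¹ ∈ S := by
    intro g hg
    have e : g⁻¹ = g ^ (orderOf g - 1) := by
      refine inv_eq_of_mul_eq_one_right ?_
      rw [← pow_succ', Nat.sub_add_cancel (orderOf_pos g), pow_orderOf_eq_one]
    rw [e]
    exact pow_mem hg _
  let H : Subgroup SL(2, F) := { S with inv_mem' := fun {g} hg => hinv g hg }
  have hH : H = ⊤ := by
    rw [eq_top_iff, ← CfsgLib.Twisted.sl_gen, Subgroup.closure_le]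
    rintro g (⟨t, rfl⟩ | ⟨t, rfl⟩)
    · exact hX t
    · show p (slY t)
      rw [slY_eq]
      exact hmul _ _ (hmul _ _ hW (hX _)) (hmul _ _ (hmul _ _ hW hW) hW)
  have : g ∈ H := by rw [hH]; exact Subgroup.mem_top g
  exact this

namespace D4

open CfsgLib.TwMult.Cubic

variable {K : Type u} [Field K] [Fintype K] {p f : ℕ} [Fact p.Prime] [CharP K p]

local notation "𝔾" => twistedD4 K (p ^ f)

set_option maxHeartbeats 4000000 in
/-- The kernel of a stem extension of exponent `p` meets the commutator subgroup of the preimage of a subgroup of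
index prime to `p` trivially. -/
theorem exists_local (hf : 1 ≤ f) (hK : Fintype.card K = (p ^ f) ^ 3) {Γ : Type u} [Group Γ] [Finite Γ]
    (σ : Γ →* ↥(twistedD4 K (p ^ f))) (hs : Function.Surjective σ) (hc : σ.ker ≤ Subgroup.center Γ)
    (hexp : ∀ z, σ z = 1 → z ^ p = 1) :
    ∃ H : Subgroup ↥(twistedD4 K (p ^ f)), ¬ p ∣ H.index ∧
      ∀ z ∈ ⁅H.comap σ, H.comap σ⁆, z ∈ σ.ker → z = 1 := by
  classical
  have hp : p.Prime := Fact.out
  have hf0 : f ≠ 0 := by omega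
  have h2 : 2 ≤ p ^ f := hp.two_le.trans (Nat.le_self_pow hf0 p)
  set fr := frq K p f with hfr
  have P := frob (K := K) hf hK
  set T := twGrpD4 (K := K) hf hK
  set K1 := fldD4 K p f 1
  have hK1 : Nat.card K1 = (p ^ f) ^ 3 := (card_fldD4 hf hK).2
  haveI : CharP K1 p := K1.subtype.charP K1.subtype.injective p
  haveI : Finite K1 := inferInstance
  haveI := Fintype.ofFinite K1
  have h8 : 8 ≤ Nat.card K1 := by
    rw [hK1]
    calc 8 = 2 ^ 3 := by norm_num
      _ ≤ (p ^ f) ^ 3 := Nat.pow_le_pow_left h2 3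
  have hK9 : Fintype.card K1 ≠ 4 ∧ Fintype.card K1 ≠ 9 := by
    rw [← Nat.card_eq_fintype_card, hK1]
    constructor
    · have : 2 ^ 3 ≤ (p ^ f) ^ 3 := Nat.pow_le_pow_left h2 3
      omega
    · intro h9
      rcases Nat.lt_or_ge (p ^ f) 3 with h3 | h3
      · rw [show p ^ f = 2 by omega] at h9; omega
      · have : 3 ^ 3 ≤ (p ^ f) ^ 3 := Nat.pow_le_pow_left h3 3
        omega
  set R1 := (T.faith 1).rel
  set ψ := R1.hom
  have hperf := sl2_perfect (F := K1) (by omega)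
  obtain ⟨φ, hφ⟩ := exists_hom_lift hperf (sl2_hasCyclicSchurMultiplier_one hK9.1 hK9.2) σ hs hc ψ
  -- the images of the generators
  let el : K → K1 := fun u => ⟨u, trivial⟩
  have hψX : ∀ u, ((ψ (slX u) : ↥𝔾) : GL chevD4.Idx K) = tx fullD4.cert fr (orbD4 1) (u : K) := by
    intro u
    have : ψ (slX u) = T.X 1 u := by
      show slFun (T.X 1) (T.Y 1) (slX u) = _
      simp [slFun, slX, R1.h_one]
    rw [this]; rfl
  have hψW : ((ψ slW : ↥𝔾) : GL chevD4.Idx K) =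
      slN (tx fullD4.cert fr (orbD4 1)) (ty fullD4.cert fr (orbD4 1)) (1 : K) := by
    have : ψ slW = slN (T.X 1) (T.Y 1) 1 := by
      show slFun (T.X 1) (T.Y 1) slW = _
      simp [slFun, slW, R1.x_zero]
    rw [this, coe_slN]; rfl
  have hψD : ∀ c : K1ˣ, ((ψ (slD c) : ↥𝔾) : GL chevD4.Idx K) =
      torusHom chevD4 K (hv fr (orbD4 1) (Units.map K1.subtype.toMonoidHom c)) := by
    intro c
    have : ψ (slD c) = slH (T.X 1) (T.Y 1) (c : K1) := by
      show slFun (T.X 1) (T.Y 1) (slD c) = _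
      simp [slFun, slD, R1.x_zero]
    rw [this, coe_slH]
    exact slH_mem_diagonal fullD4 fr (d4Ortho 1) (Units.map K1.subtype.toMonoidHom c)
  have hNrm : ∀ M, Nrm ((ψ M : ↥𝔾) : GL chevD4.Idx K) := by
    intro M
    refine sl2_induction (p := fun M => Nrm ((ψ M : ↥𝔾) : GL chevD4.Idx K)) ?_ (fun t => ?_) ?_
      (fun a b ha hb => ?_) M
    · rw [map_one, OneMemClass.coe_one]
      exact ⟨fun v hv => by simpa using hv, fun d _ => by simp⟩
    · rw [hψX]; exact nrm_a fr _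
    · rw [hψW]; exact nrm_w fr
    · rw [map_mul, Subgroup.coe_mul]; exact ha.mul hb
  have hψinj : ∀ M, ψ M = 1 → M = 1 := by
    intro M hM
    have hM' : ∀ N, (N * M * N⁻¹).1 0 1 = 0 := fun N => (T.faith 1).ker_upper (by
      show ψ (N * M * N⁻¹) = 1
      rw [map_mul, map_mul, hM, map_inv, mul_one, mul_inv_cancel])
    have h01 : M.1 0 1 = 0 := by simpa using hM' 1
    have h10 : M.1 1 0 = 0 := by
      have := hM' slW
      rw [Matrix.SpecialLinearGroup.coe_mul, Matrix.SpecialLinearGroup.coe_mul,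
        Matrix.SpecialLinearGroup.coe_inv, slW_coe, Matrix.adjugate_fin_two_of, Matrix.eta_fin_two M.1,
        Matrix.mul_fin_two, Matrix.mul_fin_two] at this
      simpa using this
    have hdet := sl_det M
    rw [h01, zero_mul, sub_zero] at hdet
    have ha : M.1 0 0 ≠ 0 := left_ne_zero_of_mul_eq_one hdet
    set c := Units.mk0 _ ha
    have h2 : slH (T.X 1) (T.Y 1) (c : K1) = 1 := by
      have h3 : slFun (T.X 1) (T.Y 1) M = 1 := hM
      rwa [slFun, if_pos h10, h01, zero_div, R1.x_zero, mul_one] at h3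
    obtain ⟨-, hc1⟩ := d4_torus_inj T 1 c (by rw [Units.val_one, (T.faith 0).rel.h_one, one_mul]; exact h2)
    have h00 : M.1 0 0 = 1 := congrArg Units.val hc1
    rw [h00, one_mul] at hdet
    apply Subtype.ext
    ext i j
    fin_cases i <;> fin_cases j <;> simp [h00, h01, h10, hdet]
  -- the preimages of the radical and of its centre
  let Qg : Subgroup ↥𝔾 := (Q9 K).subgroupOf 𝔾
  let Dg : Subgroup ↥𝔾 := (D1 K).subgroupOf 𝔾
  let Qt : Subgroup Γ := Qg.comap σ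
  let Dt : Subgroup Γ := Dg.comap σ
  have hDQ : ∀ {b}, b ∈ Dt → b ∈ Qt := fun hb => D1_le hb
  have hkerD : ∀ {z}, σ z = 1 → z ∈ Dt := fun {z} hz => by
    show ((σ z : ↥𝔾) : GL chevD4.Idx K) ∈ D1 K
    rw [hz]; exact one_mem _
  let cl : Qt → Additive (Mq K) := fun a => cls ⟨((σ a : ↥𝔾) : GL chevD4.Idx K), a.2⟩
  have cl_mul : ∀ a b : Qt, cl (a * b) = cl a + cl b := fun a b => by
    rw [← cls_mul]
    exact congrArg cls (Subtype.ext (by simp [map_mul]))
  let clH : Qt →* Multiplicative (Additive (Mq K)) :=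
    MonoidHom.mk' (fun a => Multiplicative.ofAdd (cl a)) fun a b => by rw [cl_mul]; rfl
  have cl_zero : ∀ {a : Qt}, cl a = 0 ↔ (a : Γ) ∈ Dt := fun {a} => cls_eq_zero
  have cl_eq : ∀ {a b : Qt}, cl a = cl b → (a : Γ)⁻¹ * b ∈ Dt := fun {a b} e => by
    refine (cl_zero (a := a⁻¹ * b)).1 ?_
    have h1 : cl (a * (a⁻¹ * b)) = cl a + cl (a⁻¹ * b) := cl_mul _ _
    rw [mul_inv_cancel_left, ← e, left_eq_add] at h1
    exact h1
  -- lifts of the coordinates
  have hlift : ∀ x : Coord fr, ∃ a : Qt,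
      ((σ a : ↥𝔾) : GL chevD4.Idx K) = gQ fr (x.1 : K) x.2.1 x.2.2.1 (x.2.2.2 : K) 0 := fun x => by
    obtain ⟨a, ha⟩ := hs ⟨gQ fr (x.1 : K) x.2.1 x.2.2.1 (x.2.2.2 : K) 0,
      gQ_mem_G hf hK _ _ _ _ _ x.1.2 x.2.2.2.2 (map_zero _)⟩
    refine ⟨⟨a, ?_⟩, congrArg Subtype.val ha⟩
    show ((σ a : ↥𝔾) : GL chevD4.Idx K) ∈ Q9 K
    rw [ha]; exact gQ_mem _ _ _ _ _ _
  choose lf hlf using hlift
  let layC : Coord fr → Additive (Mq K) := fun x => lay fr (x.1 : K) x.2.1 x.2.2.1 (x.2.2.2 : K)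
  have cl_lf : ∀ x, cl (lf x) = layC x := fun x => by
    show cls _ = _
    rw [show (⟨((σ (lf x : Γ) : ↥𝔾) : GL chevD4.Idx K), (lf x).2⟩ : ↥(Q9 K)) =
      ⟨_, gQ_mem fr (x.1 : K) x.2.1 x.2.2.1 (x.2.2.2 : K) 0⟩ from Subtype.ext (hlf x), cls_gQ]
  have hdec : ∀ a : Qt, ∃ x, cl a = layC x := fun a => by
    obtain ⟨r, t, s, v, w, hr, hv, -, e⟩ := radical_form hf hK (σ (a : Γ)).2 a.2
    refine ⟨(⟨r, hr⟩, t, s, ⟨v, hv⟩), ?_⟩
    show cls _ = _
    rw [show (⟨((σ (a : Γ) : ↥𝔾) : GL chevD4.Idx K), a.2⟩ : ↥(Q9 K)) = ⟨_, gQ_mem fr r t s v w⟩ from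
      Subtype.ext e, cls_gQ]
  have layC_add : ∀ x y, layC (x + y) = layC x + layC y := fun x y => lay_add fr _ _ _ _ _ _ _ _
  have hlf_add : ∀ x y, ∃ d ∈ Dt, (lf (x + y) : Γ) = lf x * lf y * d := fun x y => by
    refine ⟨((lf x : Γ) * lf y)⁻¹ * lf (x + y), cl_eq (a := lf x * lf y) ?_, by group⟩
    rw [cl_mul, cl_lf, cl_lf, cl_lf, layC_add]
  have hdec' : ∀ a : Qt, ∃ x, ∃ d ∈ Dt, (a : Γ) = lf x * d := fun a => by
    obtain ⟨x, hx⟩ := hdec a
    exact ⟨x, (lf x : Γ)⁻¹ * a, cl_eq (by rw [cl_lf, hx]), by group⟩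
  -- conjugation by the lifts of the rank one subgroup
  have hconjQ : ∀ M, ∀ a ∈ Qt, φ M * a * (φ M)⁻¹ ∈ Qt := fun M a ha => by
    show ((σ (φ M * a * (φ M)⁻¹) : ↥𝔾) : GL chevD4.Idx K) ∈ Q9 K
    rw [map_mul, map_mul, map_inv, hφ, Subgroup.coe_mul, Subgroup.coe_mul, Subgroup.coe_inv]
    exact (hNrm M).1 _ ha
  let cjQ : SL(2, K1) → Qt → Qt := fun M a => ⟨φ M * a * (φ M)⁻¹, hconjQ M a a.2⟩
  have cl_cjQ : ∀ M a, cl (cjQ M a) = cj (hNrm M) (cl a) := fun M a => by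
    show cls _ = cj (hNrm M) (cls _)
    rw [cj_cls]
    refine congrArg cls (Subtype.ext ?_)
    show ((σ (φ M * a * (φ M)⁻¹) : ↥𝔾) : GL chevD4.Idx K) = _
    rw [map_mul, map_mul, map_inv, hφ]
    rfl
  have layU : ∀ u x, cj (hNrm (slX (el u))) (layC x) = layC (actU P u x) := fun u x => by
    rw [cj_congr (hNrm (slX (el u))) (nrm_a fr u) (hψX (el u))]
    exact cj_a_lay fr P u _ _ _ _ x.1.2 x.2.2.2.2
  have layN : ∀ x, cj (hNrm slW) (layC x) = layC (actN x) := fun x => by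
    rw [cj_congr (hNrm slW) (nrm_w fr) hψW]
    exact cj_w_lay fr _ _ _ _ x.1.2 x.2.2.2.2
  -- commutation with the preimage of the centre
  have hDcomm : ∀ d ∈ Dt, ∀ a ∈ Qt, Commute (σ d) (σ a) := by
    intro d hd a ha
    obtain ⟨w, hw⟩ := mem_D1 (show ((σ d : ↥𝔾) : GL chevD4.Idx K) ∈ D1 K from hd)
    refine Subtype.ext ?_
    show ((σ d : ↥𝔾) : GL chevD4.Idx K) * (σ a : ↥𝔾) = ((σ a : ↥𝔾) : GL chevD4.Idx K) * (σ d : ↥𝔾)
    rw [hw]
    exact ((commute_center ha w).eq).symm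
  have hψD1 : ∀ M, ∀ d ∈ Dt, Commute (σ (φ M)) (σ d) := by
    intro M d hd
    refine Subtype.ext ?_
    show ((σ (φ M) : ↥𝔾) : GL chevD4.Idx K) * (σ d : ↥𝔾) = ((σ d : ↥𝔾) : GL chevD4.Idx K) * (σ (φ M) : ↥𝔾)
    rw [hφ]
    exact mul_inv_eq_iff_eq_mul.1 ((hNrm M).2 _ hd)
  letI : CommGroup σ.ker :=
    { (inferInstance : Group σ.ker) with
      mul_comm := fun a b => Subtype.ext (Subgroup.mem_center_iff.1 (hc b.2) (a : Γ)) }
  let one : ↥(fixA fr) := ⟨1, map_one fr⟩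
  have hgen : ∀ b ∈ Dt, ∃ v, ∃ z, σ z = 1 ∧ b = ⁅(lf (cE one) : Γ), (lf (cC v) : Γ)⁆ * z := by
    intro b hb
    obtain ⟨r, t, s, v, w, hr, hv, hw, e⟩ := radical_form hf hK (σ b).2 (hDQ hb)
    have e0 : lay fr r t s v = 0 := by
      have := (cl_zero (a := ⟨b, hDQ hb⟩)).2 hb
      rwa [show cl ⟨b, hDQ hb⟩ = cls ⟨gQ fr r t s v w, gQ_mem _ _ _ _ _ _⟩ from congrArg cls (Subtype.ext e),
        cls_gQ] at this
    obtain ⟨rfl, rfl, rfl, rfl⟩ := lay_eq_zero fr e0
    refine ⟨-⟨w, hw⟩, ⁅(lf (cE one) : Γ), (lf (cC (-⟨w, hw⟩)) : Γ)⁆⁻¹ * b, ?_, by group⟩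
    rw [map_mul, map_inv, inv_mul_eq_one]
    refine Subtype.ext ?_
    rw [map_commutatorElement, commutatorElement_def]
    simp only [Subgroup.coe_mul, Subgroup.coe_inv, hlf, e]
    simp only [cE, cC, AddMonoidHom.mk'_apply, gQ, gA, gB, gC, gE, gD, map_zero, neg_zero, xG_zero, mul_one,
      one_mul, ZeroMemClass.coe_zero, NegMemClass.coe_neg, neg_neg]
    have h := comm_gE_gC (K := K) (-w)
    simp only [gE, gC, gD, neg_neg] at h
    exact h
  have hkill : ∀ d ∈ Dt, ∀ a ∈ Qt, ⁅d, a⁆ = 1 := by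
    intro d hd
    let χ : Qt →* σ.ker := MonoidHom.mk' (fun a => ⟨⁅d, (a : Γ)⁆, comm_mem_ker (hDcomm d hd a a.2)⟩)
      fun a b => Subtype.ext (comm_mul_right hc (hDcomm d hd b b.2))
    have hχD : ∀ b (hb : b ∈ Dt), χ ⟨b, hDQ hb⟩ = 1 := by
      intro b hb
      obtain ⟨v, z, hz, e⟩ := hgen b hb
      have hzQ : z ∈ Qt := hDQ (hkerD hz)
      rw [show (⟨b, hDQ hb⟩ : Qt) = ⁅lf (cE one), lf (cC v)⁆ * ⟨z, hzQ⟩ from Subtype.ext e, map_mul,
        map_commutatorElement, commutatorElement_eq_one_iff_mul_comm.2 (mul_comm _ _), one_mul]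
      exact Subtype.ext (commutatorElement_eq_one_iff_mul_comm.2 (ker_comm hc hz d))
    have hfadd : ∀ x y, χ (lf (x + y)) = χ (lf x) * χ (lf y) := fun x y => by
      obtain ⟨e, he, he'⟩ := hlf_add x y
      rw [show lf (x + y) = lf x * lf y * ⟨e, hDQ he⟩ from Subtype.ext he', map_mul, map_mul, hχD e he, mul_one]
    let fχ : Coord fr →+ Additive σ.ker :=
      AddMonoidHom.mk' (fun x => Additive.ofMul (χ (lf x))) fun x y => by rw [hfadd]; rfl
    have hinv : ∀ M x y, cj (hNrm M) (layC x) = layC y → χ (lf y) = χ (lf x) := by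
      intro M x y e
      have hy : cl (cjQ M (lf x)) = cl (lf y) := by rw [cl_cjQ, cl_lf, cl_lf, e]
      have h3 : (χ (lf y) : σ.ker) = χ (cjQ M (lf x)) := by
        rw [show lf y = cjQ M (lf x) * ⟨_, hDQ (cl_eq hy)⟩ from
          Subtype.ext (by show _ = (cjQ M (lf x) : Γ) * ((cjQ M (lf x) : Γ)⁻¹ * (lf y : Γ)); group),
          map_mul, hχD _ (cl_eq hy), mul_one]
      rw [h3]
      refine Subtype.ext ?_
      show ⁅d, φ M * (lf x : Γ) * (φ M)⁻¹⁆ = ⁅d, (lf x : Γ)⁆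
      rw [← comm_conj hc (hDcomm d hd _ (lf x).2) (φ M)]
      refine comm_eq_of_map_eq hc ?_ rfl
      rw [map_mul, map_mul, map_inv, (hψD1 M d hd).eq, mul_inv_cancel_right]
    have hz : ∀ x, χ (lf x) = 1 := fun x =>
      form_eq_zero P fχ (fun u x => congrArg Additive.ofMul (hinv _ x _ (layU u x)))
        (fun x => congrArg Additive.ofMul (hinv _ x _ (layN x))) x
    intro a ha
    obtain ⟨x, e, he, he'⟩ := hdec' ⟨a, ha⟩
    have : χ ⟨a, ha⟩ = 1 := by
      rw [show (⟨a, ha⟩ : Qt) = lf x * ⟨e, hDQ he⟩ from Subtype.ext he', map_mul, hz, hχD e he, mul_one]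
    exact congrArg Subtype.val this
  have hDcentral : ∀ d ∈ Dt, ∀ a ∈ Qt, Commute d a := fun d hd a ha =>
    commutatorElement_eq_one_iff_commute.1 (hkill d hd a ha)
  have hφD : ∀ M, ∀ d ∈ Dt, Commute (φ M) d := by
    intro M d hd
    let δ : SL(2, K1) →* σ.ker := MonoidHom.mk' (fun M => ⟨⁅φ M, d⁆, comm_mem_ker (hψD1 M d hd)⟩) fun a b =>
      Subtype.ext (by
        show ⁅φ (a * b), d⁆ = ⁅φ a, d⁆ * ⁅φ b, d⁆
        rw [map_mul, comm_mul_left hc (hψD1 b d hd)])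
    have : δ M = 1 := by
      have h1 : commutator SL(2, K1) ≤ δ.ker := Abelianization.commutator_subset_ker δ
      rw [hperf] at h1
      exact h1 (Subgroup.mem_top M)
    exact commutatorElement_eq_one_iff_commute.1 (congrArg Subtype.val this)
  -- the commutator pairing
  have hcD : ∀ a b : Qt, ⁅(a : Γ), (b : Γ)⁆ ∈ Dt := fun a b => by
    refine (cl_zero (a := ⁅a, b⁆)).1 ?_
    have h1 : clH ⁅a, b⁆ = 1 := by
      rw [map_commutatorElement, commutatorElement_eq_one_iff_mul_comm]; exact mul_comm _ _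
    exact h1
  letI : CommGroup Dt :=
    { (inferInstance : Group Dt) with
      mul_comm := fun a b => Subtype.ext (hDcentral a a.2 b (hDQ b.2)).eq }
  have pair_congr : ∀ a b c d : Γ, c ∈ Dt → d ∈ Dt → a ∈ Qt → b ∈ Qt → ⁅a * c, b * d⁆ = ⁅a, b⁆ := by
    intro a b c d hc' hd' ha hb
    have h1 : c * b = b * c := (hDcentral c hc' b hb).eq
    have h2 : c * d = d * c := (hDcentral c hc' d (hDQ hd')).eq
    have h3 : d * a = a * d := (hDcentral d hd' a ha).eq
    simp only [commutatorElement_def, mul_inv_rev]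
    calc a * c * (b * d) * (c⁻¹ * a⁻¹) * (d⁻¹ * b⁻¹)
        = a * (c * b) * d * c⁻¹ * a⁻¹ * d⁻¹ * b⁻¹ := by group
      _ = a * b * (c * d) * c⁻¹ * a⁻¹ * d⁻¹ * b⁻¹ := by rw [h1]; group
      _ = a * b * d * a⁻¹ * d⁻¹ * b⁻¹ := by rw [h2]; group
      _ = a * b * (a⁻¹ * (a * d) * a⁻¹) * d⁻¹ * b⁻¹ := by group
      _ = a * b * (a⁻¹ * (d * a) * a⁻¹) * d⁻¹ * b⁻¹ := by rw [h3]
      _ = _ := by group
  let c2 : Coord fr → Coord fr → Additive Dt := fun x y => Additive.ofMul ⟨⁅(lf x : Γ), (lf y : Γ)⁆, hcD _ _⟩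
  have c2l : ∀ x x' y, c2 (x + x') y = c2 x y + c2 x' y := fun x x' y => by
    apply Subtype.ext
    show ⁅(lf (x + x') : Γ), (lf y : Γ)⁆ = ⁅(lf x : Γ), (lf y : Γ)⁆ * ⁅(lf x' : Γ), (lf y : Γ)⁆
    obtain ⟨d, hd, e⟩ := hlf_add x x'
    have h5 := pair_congr ((lf x : Γ) * lf x') (lf y) d 1 hd (one_mem _) (mul_mem (lf x).2 (lf x').2) (lf y).2
    rw [mul_one] at h5
    rw [e, h5]
    have h1 : ⁅(lf x : Γ) * lf x', (lf y : Γ)⁆ =
        (lf x : Γ) * ⁅(lf x' : Γ), (lf y : Γ)⁆ * (lf x : Γ)⁻¹ * ⁅(lf x : Γ), (lf y : Γ)⁆ := by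
      simp only [commutatorElement_def]; group
    rw [h1, ← (hDcentral _ (hcD (lf x') (lf y)) _ (lf x).2).eq, mul_inv_cancel_right]
    exact (hDcentral _ (hcD (lf x') (lf y)) _ (hDQ (hcD (lf x) (lf y)))).eq
  have c2flip : ∀ x y, c2 y x = -c2 x y := fun x y =>
    Subtype.ext (commutatorElement_inv (lf x : Γ) (lf y : Γ)).symm
  have c2r : ∀ x y y', c2 x (y + y') = c2 x y + c2 x y' := fun x y y' => by
    rw [c2flip (y + y') x, c2l, c2flip y x, c2flip y' x, neg_add]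
  let F2 : Coord fr →+ Coord fr →+ Additive Dt :=
    AddMonoidHom.mk' (fun x => AddMonoidHom.mk' (fun y => c2 x y) (c2r x)) fun x x' =>
      AddMonoidHom.ext fun y => c2l x x' y
  have hinv2 : ∀ M x y x' y', cj (hNrm M) (layC x) = layC x' → cj (hNrm M) (layC y) = layC y' →
      c2 x' y' = c2 x y := by
    intro M x y x' y' ex ey
    have hx : cl (cjQ M (lf x)) = cl (lf x') := by rw [cl_cjQ, cl_lf, cl_lf, ex]
    have hy : cl (cjQ M (lf y)) = cl (lf y') := by rw [cl_cjQ, cl_lf, cl_lf, ey]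
    apply Subtype.ext
    show ⁅(lf x' : Γ), (lf y' : Γ)⁆ = ⁅(lf x : Γ), (lf y : Γ)⁆
    rw [show (lf x' : Γ) = (cjQ M (lf x) : Γ) * ((cjQ M (lf x) : Γ)⁻¹ * lf x') by group,
      show (lf y' : Γ) = (cjQ M (lf y) : Γ) * ((cjQ M (lf y) : Γ)⁻¹ * lf y') by group,
      pair_congr _ _ _ _ (cl_eq hx) (cl_eq hy) (cjQ M (lf x)).2 (cjQ M (lf y)).2]
    show ⁅φ M * (lf x : Γ) * (φ M)⁻¹, φ M * (lf y : Γ) * (φ M)⁻¹⁆ = _
    rw [← conjugate_commutatorElement, (hφD M _ (hcD (lf x) (lf y))).eq, mul_inv_cancel_right]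
  let S : AddSubgroup (Additive Dt) := ((F2 (cE one)).comp cC).range
  have hpair : ∀ x y, c2 x y ∈ S := pair_mem P F2 (fun u x y => hinv2 _ x y _ _ (layU u x) (layU u y))
    (fun x y => hinv2 _ x y _ _ (layN x) (layN y)) S (fun v => ⟨v, rfl⟩) fun v => by
      show c2 (cC v) (cE one) ∈ S
      rw [c2flip]
      exact neg_mem ⟨v, rfl⟩
  let Dh : Subgroup Γ :=
    { carrier := {g | ∃ v, g = ⁅(lf (cE one) : Γ), (lf (cC v) : Γ)⁆}
      one_mem' := ⟨0, congrArg (fun t : Additive Dt => ((Additive.toMul t : Dt) : Γ))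
        (((F2 (cE one)).comp cC).map_zero).symm⟩
      mul_mem' := by
        rintro _ _ ⟨v, rfl⟩ ⟨v', rfl⟩
        exact ⟨v + v', congrArg (fun t : Additive Dt => ((Additive.toMul t : Dt) : Γ))
          (((F2 (cE one)).comp cC).map_add v v').symm⟩
      inv_mem' := by
        rintro _ ⟨v, rfl⟩
        exact ⟨-v, congrArg (fun t : Additive Dt => ((Additive.toMul t : Dt) : Γ))
          (((F2 (cE one)).comp cC).map_neg v).symm⟩ }
  have hDhD : Dh ≤ Dt := by rintro _ ⟨v, rfl⟩; exact hcD _ _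
  have hcommQ : ∀ a b : Qt, ⁅(a : Γ), (b : Γ)⁆ ∈ Dh := by
    intro a b
    obtain ⟨x, d, hd, ea⟩ := hdec' a
    obtain ⟨y, e, he, eb⟩ := hdec' b
    rw [ea, eb, pair_congr _ _ _ _ hd he (lf x).2 (lf y).2]
    obtain ⟨v, hv⟩ := hpair x y
    exact ⟨v, congrArg (fun t : Additive Dt => ((Additive.toMul t : Dt) : Γ)) hv.symm⟩
  have hDhker : ∀ g ∈ Dh, σ g = 1 → g = 1 := by
    rintro _ ⟨v, rfl⟩ hg
    have hv : v = 0 := by
      rw [map_commutatorElement] at hg
      have e := congrArg (fun t : ↥𝔾 => (t : GL chevD4.Idx K)) hg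
      simp only [commutatorElement_def, Subgroup.coe_mul, Subgroup.coe_inv, Subgroup.coe_one, hlf] at e
      simp only [cE, cC, AddMonoidHom.mk'_apply, gQ, gA, gB, gC, gE, gD, map_zero, neg_zero, xG_zero, mul_one,
        one_mul, ZeroMemClass.coe_zero, one] at e
      have h := comm_gE_gC (K := K) (v : K)
      simp only [gE, gC] at h
      rw [h] at e
      have := gD_inj (e.trans (show (1 : GL chevD4.Idx K) = gD (0 : K) from (xG_zero fullD4.cert _).symm))
      exact Subtype.ext (neg_eq_zero.1 this)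
    subst hv
    exact congrArg (fun t : Additive Dt => ((Additive.toMul t : Dt) : Γ)) ((F2 (cE one)).comp cC).map_zero
  -- the module
  let DQs : Subgroup Qt := Dh.subgroupOf Qt
  haveI hnor : DQs.Normal := ⟨fun d hd a => by
    show (a : Γ) * (d : Γ) * (a : Γ)⁻¹ ∈ Dh
    rw [← (hDcentral (d : Γ) (hDhD hd) _ a.2).eq, mul_inv_cancel_right]; exact hd⟩
  letI : CommGroup (Qt ⧸ DQs) :=
    { (inferInstance : Group (Qt ⧸ DQs)) with
      mul_comm := fun a b => by
        induction a using QuotientGroup.induction_on with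
        | H a =>
        induction b using QuotientGroup.induction_on with
        | H b =>
        rw [← QuotientGroup.mk_mul, ← QuotientGroup.mk_mul, QuotientGroup.eq]
        show ((a : Γ) * b)⁻¹ * ((b : Γ) * a) ∈ Dh
        have := hcommQ b⁻¹ a⁻¹
        simpa [commutatorElement_def, mul_assoc] using this }
  let W := Additive (Qt ⧸ DQs)
  let π : W →+ Additive (Mq K) := MonoidHom.toAdditiveLeft (QuotientGroup.lift DQs clH fun d hd => by
    show clH d = 1
    exact congrArg Multiplicative.ofAdd ((cl_zero (a := d)).2 (hDhD hd)))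
  let mkW : Qt → W := fun a => Additive.ofMul (a : Qt ⧸ DQs)
  have mkW_surj : ∀ w : W, ∃ a, mkW a = w := fun w => QuotientGroup.mk_surjective (Additive.toMul w)
  have π_mk : ∀ a, π (mkW a) = cl a := fun a => rfl
  let Ω : SL(2, K1) → W →+ W := fun M => MonoidHom.toAdditive (QuotientGroup.lift DQs
    ((QuotientGroup.mk' DQs).comp (MonoidHom.mk' (cjQ M) fun a b => Subtype.ext (by simp [cjQ, mul_assoc])))
    fun d hd => by
      rw [MonoidHom.mem_ker, MonoidHom.comp_apply, QuotientGroup.mk'_apply, QuotientGroup.eq_one_iff]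
      show φ M * (d : Γ) * (φ M)⁻¹ ∈ Dh
      rw [(hφD M (d : Γ) (hDhD hd)).eq, mul_inv_cancel_right]; exact hd)
  have Ω_mk : ∀ M a, Ω M (mkW a) = mkW (cjQ M a) := fun M a => rfl
  have Ω_mul : ∀ M N w, Ω (M * N) w = Ω M (Ω N w) := fun M N w => by
    obtain ⟨a, rfl⟩ := mkW_surj w
    rw [Ω_mk, Ω_mk, Ω_mk]
    exact congrArg mkW (Subtype.ext (by simp [cjQ, mul_assoc]))
  have Ω_one : ∀ w, Ω 1 w = w := fun w => by
    obtain ⟨a, rfl⟩ := mkW_surj w
    rw [Ω_mk]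
    exact congrArg mkW (Subtype.ext (by simp [cjQ]))
  have π_Ω : ∀ M w, π (Ω M w) = cj (hNrm M) (π w) := fun M w => by
    obtain ⟨a, rfl⟩ := mkW_surj w
    rw [Ω_mk, π_mk, π_mk, cl_cjQ]
  have hker : ∀ w, π w = 0 → ∃ z : Qt, σ (z : Γ) = 1 ∧ mkW z = w := fun w hw => by
    obtain ⟨a, rfl⟩ := mkW_surj w
    rw [π_mk, cl_zero] at hw
    obtain ⟨v, z, hz, e⟩ := hgen _ hw
    refine ⟨⟨z, hDQ (hkerD hz)⟩, hz, ?_⟩
    refine congrArg Additive.ofMul (QuotientGroup.eq.2 ?_)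
    show z⁻¹ * (a : Γ) ∈ Dh
    rw [e, ker_comm hc hz, inv_mul_cancel_left]
    exact ⟨v, rfl⟩
  have trivΩ : ∀ M w, π w = 0 → Ω M w = w := fun M w hw => by
    obtain ⟨z, hz, rfl⟩ := hker w hw
    rw [Ω_mk]
    refine congrArg mkW (Subtype.ext ?_)
    show φ M * (z : Γ) * (φ M)⁻¹ = z
    rw [ker_comm hc hz, mul_inv_cancel_right]
  let eM : K →+ Additive (Mq K) := AddMonoidHom.mk' (fun r => lay fr r 0 0 0) fun a b => by
    rw [← lay_add]; simp
  let aM : K →+ Additive (Mq K) := AddMonoidHom.mk' (fun t => lay fr 0 t 0 0) fun a b => by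
    rw [← lay_add]; simp
  let bM : K →+ Additive (Mq K) := AddMonoidHom.mk' (fun s => lay fr 0 0 s 0) fun a b => by
    rw [← lay_add]; simp
  let cM : K →+ Additive (Mq K) := AddMonoidHom.mk' (fun v => lay fr 0 0 0 v) fun a b => by
    rw [← lay_add]; simp
  have hsum : ∀ r t s v, eM r + aM t + bM s + cM v = lay fr r t s v := fun r t s v => by
    show lay fr r 0 0 0 + lay fr 0 t 0 0 + lay fr 0 0 s 0 + lay fr 0 0 0 v = _
    rw [← lay_add, ← lay_add, ← lay_add]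
    simp
  let U : K → W →+ W := fun u => Ω (slX (el u))
  let nn : W →+ W := Ω slW
  let TT : Kˣ → W →+ W := fun c => Ω (slD (Units.mk0 (el (c : K)) fun h => c.ne_zero (congrArg Subtype.val h)))
  have hTT : ∀ c d : Kˣ, (Units.mk0 (el ((c * d : Kˣ) : K)) fun h => (c * d).ne_zero (congrArg Subtype.val h)) =
      Units.mk0 (el (c : K)) (fun h => c.ne_zero (congrArg Subtype.val h)) *
      Units.mk0 (el (d : K)) fun h => d.ne_zero (congrArg Subtype.val h) := fun c d =>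
    Units.ext (Subtype.ext (by simp [el]))
  have X : Cubic.Ext fr π eM aM bM cM p U nn TT := by
    refine
      { ind := fun r t s v _ _ h => lay_eq_zero fr (by rw [← hsum]; exact h)
        surj := fun r t s v hr hv => ⟨mkW (lf (⟨r, hr⟩, t, s, ⟨v, hv⟩)), by rw [π_mk, cl_lf, hsum]⟩
        range := fun w => ?_
        expo := fun w hw => ?_
        trivU := fun u w hw => trivΩ _ w hw
        trivN := fun w hw => trivΩ _ w hw
        trivT := fun c w hw => trivΩ _ w hw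
        U_add := fun u u' w => ?_
        U_map := fun u w r t s v hr hv h => ?_
        N_map := fun w r t s v hr hv h => ?_
        T_one := fun w => ?_
        T_mul := fun c d w => ?_
        T_map := fun c hc1 w r t s v hr hv h => ?_
        TU := fun c u w hc1 => ?_
        NT := fun c w hc1 => ?_
        NNU := fun u w => ?_ }
    · obtain ⟨a, rfl⟩ := mkW_surj w
      obtain ⟨x, hx⟩ := hdec a
      exact ⟨x.1, x.2.1, x.2.2.1, x.2.2.2, x.1.2, x.2.2.2.2, by rw [π_mk, hx, hsum]⟩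
    · obtain ⟨z, hz, rfl⟩ := hker w hw
      show Additive.ofMul (((z : Qt) : Qt ⧸ DQs) ^ p) = Additive.ofMul 1
      rw [← QuotientGroup.mk_pow, show z ^ p = 1 from Subtype.ext (hexp _ hz)]
      rfl
    · show Ω (slX (el (u + u'))) w = Ω (slX (el u)) (Ω (slX (el u')) w)
      rw [← Ω_mul]
      congr 2
      apply Subtype.ext
      simp only [slX_coe, Matrix.SpecialLinearGroup.coe_mul]
      ext i j
      fin_cases i <;> fin_cases j <;> simp [Matrix.mul_apply, Fin.sum_univ_two, el, add_comm]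
    · rw [hsum] at h ⊢
      rw [π_Ω, h, cj_congr (hNrm (slX (el u))) (nrm_a fr u) (hψX (el u)), cj_a_lay fr P u r t s v hr hv]
    · rw [hsum] at h ⊢
      rw [π_Ω, h, cj_congr (hNrm slW) (nrm_w fr) hψW, cj_w_lay fr r t s v hr hv]
    · show Ω _ w = w
      rw [show slD (Units.mk0 (el ((1 : Kˣ) : K)) _) = (1 : SL(2, K1)) by
        rw [show Units.mk0 (el ((1 : Kˣ) : K)) _ = (1 : K1ˣ) from Units.ext (Subtype.ext (by simp [el]))]
        exact Subtype.ext (by simp [slD, Matrix.one_fin_two])]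
      exact Ω_one w
    · show Ω _ w = Ω _ (Ω _ w)
      rw [hTT, ← slD_mul, Ω_mul]
    · rw [hsum] at h ⊢
      have hc2 : (c : K) * fr c * fr (fr c) = 1 := hc1
      rw [π_Ω, h, cj_congr (hNrm _) (nrm_t fr c hc2) (by
        rw [hψD]
        congr 2
        exact Units.ext rfl), cj_t_lay fr c hc2]
    · show Ω _ (Ω _ w) = Ω _ (Ω _ w)
      rw [← Ω_mul, ← Ω_mul]
      congr 2
      apply Subtype.ext
      simp only [slX_coe, slD_coe, Matrix.SpecialLinearGroup.coe_mul]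
      ext i j
      fin_cases i <;> fin_cases j <;> simp [Matrix.mul_apply, Fin.sum_univ_two, el] <;>
        field_simp
    · show Ω _ (Ω _ w) = Ω _ (Ω _ w)
      rw [← Ω_mul, ← Ω_mul, slW_conj_slD]
      congr 3
      exact congrArg slD (Units.ext (Subtype.ext (by simp [el])))
    · show Ω _ (Ω _ (Ω _ w)) = Ω _ (Ω _ (Ω _ w))
      rw [← Ω_mul, ← Ω_mul, ← Ω_mul, ← Ω_mul]
      congr 2
      apply Subtype.ext
      simp only [slX_coe, slW_coe, Matrix.SpecialLinearGroup.coe_mul]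
      ext i j
      fin_cases i <;> fin_cases j <;> simp [Matrix.mul_apply, Fin.sum_univ_two]
  obtain ⟨R, hR0, hRsurj, hRU, hRN⟩ := Cubic.exists_complement P X
  have hRM : ∀ M, ∀ x ∈ R, Ω M x ∈ R := fun M =>
    sl2_induction (p := fun M => ∀ x ∈ R, Ω M x ∈ R) (fun x hx => by rwa [Ω_one])
      (fun t x hx => by rw [show t = el (t : K) from Subtype.ext rfl]; exact hRU _ x hx)
      (fun x hx => hRN x hx) (fun a b ha hb x hx => by rw [Ω_mul]; exact ha _ (hb x hx)) M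
  -- the complement in the group
  let Rt : Subgroup Γ :=
    { carrier := {g | ∃ h : g ∈ Qt, mkW ⟨g, h⟩ ∈ R}
      one_mem' := ⟨one_mem _, R.zero_mem⟩
      mul_mem' := fun {a b} ⟨ha, ha'⟩ ⟨hb, hb'⟩ => ⟨mul_mem ha hb, R.add_mem ha' hb'⟩
      inv_mem' := fun {a} ⟨ha, ha'⟩ => ⟨inv_mem ha, R.neg_mem ha'⟩ }
  have hRtM : ∀ M, ∀ a ∈ Rt, φ M * a * (φ M)⁻¹ ∈ Rt := by
    rintro M a ⟨ha, ha'⟩
    refine ⟨hconjQ M a ha, ?_⟩
    have := hRM M _ ha'
    rwa [Ω_mk] at this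
  let Mg : Subgroup Γ :=
    { carrier := {g | ∃ a ∈ Rt, ∃ M, g = a * φ M}
      one_mem' := ⟨1, one_mem _, 1, by simp⟩
      mul_mem' := by
        rintro _ _ ⟨a, ha, M, rfl⟩ ⟨b, hb, N, rfl⟩
        exact ⟨a * (φ M * b * (φ M)⁻¹), mul_mem ha (hRtM M b hb), M * N, by rw [map_mul]; group⟩
      inv_mem' := by
        rintro _ ⟨a, ha, M, rfl⟩
        exact ⟨φ M⁻¹ * a⁻¹ * (φ M⁻¹)⁻¹, hRtM M⁻¹ _ (inv_mem ha), M⁻¹, by simp [mul_assoc]⟩ }
  have hQtM : ∀ a ∈ Qt, ∃ r ∈ Mg, ∃ z, σ z = 1 ∧ a = r * z := by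
    intro a ha
    obtain ⟨x, hx⟩ := hdec ⟨a, ha⟩
    obtain ⟨w, hw, hwπ⟩ := hRsurj x.1 x.2.1 x.2.2.1 x.2.2.2 x.1.2 x.2.2.2.2
    obtain ⟨b, rfl⟩ := mkW_surj w
    rw [π_mk, hsum] at hwπ
    obtain ⟨v, z, hz, e⟩ := hgen _ (cl_eq (hwπ.trans hx.symm))
    refine ⟨(b : Γ) * ⁅(lf (cE one) : Γ), (lf (cC v) : Γ)⁆, ⟨(b : Γ) * ⁅(lf (cE one) : Γ), (lf (cC v) : Γ)⁆,
      mul_mem ⟨b.2, hw⟩ ?_, 1, by simp⟩, z, hz, ?_⟩
    · refine ⟨hDQ (hDhD ⟨v, rfl⟩), ?_⟩
      have : mkW ⟨_, hDQ (hDhD ⟨v, rfl⟩)⟩ = 0 :=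
        congrArg Additive.ofMul ((QuotientGroup.eq_one_iff _).2
          (show ⁅(lf (cE one) : Γ), (lf (cC v) : Γ)⁆ ∈ Dh from ⟨v, rfl⟩))
      rw [this]; exact R.zero_mem
    · rw [mul_assoc, ← e, mul_inv_cancel_left]
  let H : Subgroup ↥𝔾 := Qg ⊔ ψ.range
  refine ⟨H, fun hdvd => ?_, ?_⟩
  · have hUH : TwGrp.PU 𝔾 ≤ H := by
      intro g hg
      obtain ⟨u, r, t, s, v, w, hr, hv, hw, e⟩ := unipotent_form hf hK g.2 hg
      have e' : g = ψ (slX (el u)) * ⟨gQ fr r t s v w, gQ_mem_G hf hK r t s v w hr hv hw⟩ :=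
        Subtype.ext (by rw [Subgroup.coe_mul, hψX]; exact e)
      rw [e']
      exact mul_mem (Subgroup.mem_sup_right ⟨_, rfl⟩) (Subgroup.mem_sup_left (gQ_mem fr r t s v w))
    exact T.not_dvd_index (hdvd.trans (Subgroup.index_dvd_of_le hUH))
  have hHle : H.comap σ ≤ Mg ⊔ σ.ker := by
    have h1 : H ≤ (Mg ⊔ σ.ker).map σ := by
      refine sup_le (fun g hg => ?_) ?_
      · obtain ⟨a, rfl⟩ := hs g
        obtain ⟨r, hr, z, hz, rfl⟩ := hQtM a hg
        exact ⟨r * z, mul_mem (Subgroup.mem_sup_left hr) (Subgroup.mem_sup_right hz), rfl⟩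
      · rintro _ ⟨M, rfl⟩
        exact ⟨φ M, Subgroup.mem_sup_left ⟨1, one_mem _, M, (one_mul _).symm⟩, hφ M⟩
    refine (Subgroup.comap_mono h1).trans ?_
    rw [Subgroup.comap_map_eq]
    exact sup_le le_rfl le_sup_right
  intro z hz hzk
  have hzM : z ∈ Mg := by
    refine (Subgroup.commutator_le.2 fun x hx y hy => ?_) (Subgroup.commutator_mono hHle hHle hz)
    have hsplit : ∀ g ∈ Mg ⊔ σ.ker, ∃ a ∈ Mg, σ g = σ a := by
      intro g hg
      rw [← Subgroup.mem_toSubmonoid] at hg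
      have : g ∈ (Mg.map σ).comap σ := by
        rw [Subgroup.comap_map_eq]; exact hg
      obtain ⟨a, ha, e⟩ := this
      exact ⟨a, ha, e.symm⟩
    obtain ⟨a, ha, ea⟩ := hsplit x hx
    obtain ⟨b, hb, eb⟩ := hsplit y hy
    rw [comm_eq_of_map_eq hc ea eb, commutatorElement_def]
    exact mul_mem (mul_mem (mul_mem ha hb) (inv_mem ha)) (inv_mem hb)
  obtain ⟨a, ⟨haQ, haR⟩, M, rfl⟩ := hzM
  have hMQ : ((ψ M : ↥𝔾) : GL chevD4.Idx K) ∈ Q9 K := by
    have h1 : σ a * ψ M = 1 := by rw [← hφ, ← map_mul]; exact hzk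
    rw [eq_inv_of_mul_eq_one_right h1, Subgroup.coe_inv]
    exact inv_mem haQ
  have hM1 : M = 1 := by
    let N : Subgroup SL(2, K1) := Qg.comap ψ
    have hNn : N.Normal := ⟨fun n hn g => by
      show ((ψ (g * n * g⁻¹) : ↥𝔾) : GL chevD4.Idx K) ∈ Q9 K
      rw [map_mul, map_mul, map_inv, Subgroup.coe_mul, Subgroup.coe_mul, Subgroup.coe_inv]
      exact (hNrm g).1 _ hn⟩
    have hNp : IsPGroup p N := by
      intro n
      have hnU : ψ (n : SL(2, K1)) ∈ TwGrp.PU 𝔾 :=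
        rootsU_mono (T := {r | chevD4.IsPosRoot r}) (fun r hr => rad_closed.1 r hr) n.2
      obtain ⟨k, hk⟩ := isPElem_of_mem (isPGroup_PU (p := p) T) hnU
      exact ⟨k, Subtype.ext (hψinj _ (by rw [Subgroup.coe_pow, map_pow]; exact hk))⟩
    obtain ⟨Sy, hSy⟩ := hNp.exists_le_sylow
    obtain ⟨g, hg⟩ := MulAction.exists_smul_eq SL(2, K1) Sy (CfsgLib.ClassicalLinear.upperSLSylow (F := K1) p)
    have h1 : g * M * g⁻¹ ∈ CfsgLib.ClassicalLinear.upperSLSylow (F := K1) p := by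
      rw [← hg, Sylow.smul_def]
      exact Subgroup.mem_map_of_mem (MulAut.conj g).toMonoidHom (hSy (show M ∈ N from hMQ))
    obtain ⟨t, ht⟩ := h1
    have h3 : CfsgLib.ClassicalLinear.upS t = slX t :=
      Subtype.ext (CfsgLib.ClassicalLinear.upS_coe t)
    rw [h3] at ht
    have h4 : ((ψ (slX t) : ↥𝔾) : GL chevD4.Idx K) ∈ Q9 K := by
      rw [ht]; exact hNn.conj_mem _ (show M ∈ N from hMQ) g
    rw [hψX] at h4
    have ht0 : t = 0 := Subtype.ext (tx_mem_Q9 hf hK h4)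
    rw [ht0, show (slX (0 : K1)) = 1 from Subtype.ext (by simp [slX, Matrix.one_fin_two]), eq_comm,
      conj_eq_one_iff] at ht
    exact ht
  subst hM1
  rw [map_one, mul_one] at hzk ⊢
  have haD : a ∈ Dt := hkerD hzk
  have h0 : mkW ⟨a, haQ⟩ = 0 := hR0 _ haR (by rw [π_mk, cl_zero]; exact haD)
  exact hDhker a ((QuotientGroup.eq_one_iff (⟨a, haQ⟩ : Qt)).1 h0) hzk

/-- No stem extension of ³D₄(q) has a kernel of order divisible by `p`. -/
theorem d4_not_dvd_ker (hf : 1 ≤ f) (hK : Fintype.card K = (p ^ f) ^ 3) {Γ : Type u} [Group Γ] [Finite Γ]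
    (σ : Γ →* ↥(twistedD4 K (p ^ f))) (hσ : Cfsg.IsStemExtension σ) : ¬ p ∣ Nat.card σ.ker := by
  intro hdvd
  obtain ⟨Δ, _, _, τ, hτ, hcard⟩ := exists_stem_card_ker_eq hσ (Fact.out : p.Prime) hdvd
  obtain ⟨H, hH, hH1⟩ := exists_local hf hK τ hτ.1 hτ.2.1 fun z hz => by
    have := pow_card_eq_one' (x := (⟨z, hz⟩ : τ.ker))
    rw [hcard] at this
    exact congrArg Subtype.val this
  exact not_dvd_card_ker_of_local hτ (Fact.out : p.Prime) H hH hH1 (dvd_of_eq hcard.symm)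

/-- The multiplier of ³D₄(q) is trivial. -/
theorem hasCyclicSchurMultiplier_one (hf : 1 ≤ f) (hK : Fintype.card K = (p ^ f) ^ 3) :
    Cfsg.HasCyclicSchurMultiplier ↥(twistedD4 K (p ^ f)) 1 :=
  CfsgLib.SchurMult.hasCyclicSchurMultiplier_one fun Γ _ _ σ hσ =>
    d4_ker_eq_bot_coprime hf hK σ hσ (d4_not_dvd_ker hf hK σ hσ)

end D4

end CfsgLib.TwMult
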