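import Cfsg.Agent.Lib.TwMult.WeylInj
import Cfsg.Agent.Lib.InvCentralizers.AutTwisted.E6
import Mathlib.RingTheory.IntegralDomain

/-!
Stem extensions of ²E₆(q) with kernel prime to the characteristic: the kernel comes from the kernel of the torus
parametrisation, a group of third roots of unity `x` with `x ^ q = x ^ 2`.
-/

set_option autoImplicit false
set_option maxRecDepth 100000
set_option linter.unusedSectionVars false
set_option linter.style.haveILetI false

namespace CfsgLib.TwMult.E6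

open Cfsg.Lie CfsgLib.Chevalley CfsgLib.InvCentralizers.AutChev CfsgLib.InvCentralizers.AutTwisted
open CfsgLib.Twisted (fullE6)
open scoped MatrixGroups

universe u

theorem perm_keep : ∀ k : Fin 4, ∀ r : Fin chevE6.nroots, chevE6.IsPosRoot r →
    (∀ i ∈ orbE6 k, (r : ℕ) ≠ chevE6.simple i) → chevE6.IsPosRoot (orbPerm fullE6.cert (orbE6 k) r) := by
  decide +kernel

theorem perm_neg : ∀ k : Fin 4, ∀ i ∈ orbE6 k, ∃ j ∈ orbE6 k,
    ((orbPerm fullE6.cert (orbE6 k) (smp fullE6.cert i) : Fin chevE6.nroots) : ℕ) =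
      chevE6.neg (chevE6.simple j) := by
  decide +kernel

theorem cartan_table : ((List.range 6).map fun i => (List.range 6).map fun k =>
    chevE6.cartan k (chevE6.simple i)) =
      [[2, 0, -1, 0, 0, 0], [0, 2, 0, -1, 0, 0], [-1, 0, 2, -1, 0, 0], [0, -1, -1, 2, -1, 0],
       [0, 0, 0, -1, 2, -1], [0, 0, 0, 0, -1, 2]] := by
  decide +kernel

/-- A cyclic group killed by `n` is an image of `ℤ/n`. -/
theorem exists_surjective_zmod {H : Type*} [Group H] {n : ℕ} (g : H) (hg : ∀ h, h ∈ Subgroup.zpowers g)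
    (hn : g ^ n = 1) : ∃ π : Multiplicative (ZMod n) →* H, Function.Surjective π := by
  refine ⟨AddMonoidHom.toMultiplicativeLeft
    (ZMod.lift n ⟨zmultiplesHom (Additive H) (Additive.ofMul g), ?_⟩), fun h => ?_⟩
  · apply Additive.toMul.injective
    simp [hn]
  · obtain ⟨i, rfl⟩ := Subgroup.mem_zpowers_iff.1 (hg h)
    exact ⟨Multiplicative.ofAdd ((i : ℤ) : ZMod n), by simp⟩

variable {K : Type u} [Field K] [Fintype K] {p f : ℕ} [Fact p.Prime] [CharP K p]

theorem torus_ker (T : TwGrp fullE6 (frq K p f) orbE6 (fldE6 K p f) (twistedE6 K (p ^ f)))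
    (c : ∀ k, (fldE6 K p f k)ˣ)
    (e : slH (T.X 0) (T.Y 0) (c 0 : fldE6 K p f 0) * slH (T.X 1) (T.Y 1) (c 1 : fldE6 K p f 1) *
      slH (T.X 2) (T.Y 2) (c 2 : fldE6 K p f 2) * slH (T.X 3) (T.Y 3) (c 3 : fldE6 K p f 3) = 1) :
    c 0 = 1 ∧ c 1 = 1 ∧ (((c 3 : fldE6 K p f 3) : K)) = ((c 2 : fldE6 K p f 2) : K) ^ 2 ∧
      ((c 2 : fldE6 K p f 2) : K) ^ 3 = 1 ∧
      ((c 2 : fldE6 K p f 2) : K) ^ p ^ f = ((c 2 : fldE6 K p f 2) : K) ^ 2 := by
  set a0 : Kˣ := Units.map (fldE6 K p f 0).subtype.toMonoidHom (c 0)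
  set a1 : Kˣ := Units.map (fldE6 K p f 1).subtype.toMonoidHom (c 1)
  set x : Kˣ := Units.map (fldE6 K p f 2).subtype.toMonoidHom (c 2)
  set y : Kˣ := Units.map (fldE6 K p f 3).subtype.toMonoidHom (c 3)
  set fru := Units.map ((frq K p f) : K →* K)
  have hf0 : fru a0 = a0 := Units.ext ((c 0 : fldE6 K p f 0).2 : (frq K p f) ((c 0 : fldE6 K p f 0) : K) = _)
  have hf1 : fru a1 = a1 := Units.ext ((c 1 : fldE6 K p f 1).2 : (frq K p f) ((c 1 : fldE6 K p f 1) : K) = _)
  set d := hv (frq K p f) (orbE6 0) a0 * hv (frq K p f) (orbE6 1) a1 * hv (frq K p f) (orbE6 2) x *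
    hv (frq K p f) (orbE6 3) y with hd
  have e1 : torusHom chevE6 K d = 1 := by
    have := congrArg (fun g : ↥(twistedE6 K (p ^ f)) => (g : GL chevE6.Idx K)) e
    simp only [Subgroup.coe_mul, coe_slH, Subgroup.coe_one] at this
    rw [show ((c 0 : fldE6 K p f 0) : K) = (a0 : K) from rfl, show ((c 1 : fldE6 K p f 1) : K) = (a1 : K) from rfl,
      show ((c 2 : fldE6 K p f 2) : K) = (x : K) from rfl, show ((c 3 : fldE6 K p f 3) : K) = (y : K) from rfl,
      slH_mem_diagonal fullE6 _ (e6Ortho 0), slH_mem_diagonal fullE6 _ (e6Ortho 1),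
      slH_mem_diagonal fullE6 _ (e6Ortho 2), slH_mem_diagonal fullE6 _ (e6Ortho 3), ← map_mul, ← map_mul,
      ← map_mul] at this
    exact this
  have hchi : ∀ i : Fin chevE6.rank, chi chevE6 (chevE6.simple i) d = 1 := fun i => by
    have h2 := torusHom_simple fullE6 d i 1
    rw [e1, one_mul, inv_one, mul_one, mul_one] at h2
    exact Units.ext (xG_injective fullE6.cert (simple_lt fullE6 i) h2).symm
  have hcf : d = (![x, a0, y, a1, fru y, fru x] : Fin 6 → Kˣ) := by
    have key : (Pi.mulSingle (1 : Fin 6) a0 * 1 * (Pi.mulSingle (3 : Fin 6) a1 * 1) *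
        (Pi.mulSingle (0 : Fin 6) x * (Pi.mulSingle (5 : Fin 6) (fru x) * 1)) *
        (Pi.mulSingle (2 : Fin 6) y * (Pi.mulSingle (4 : Fin 6) (fru y) * 1)) : Fin 6 → Kˣ) =
        ![x, a0, y, a1, fru y, fru x] := by
      funext k
      fin_cases k <;> simp
    rw [hd]
    exact key
  have hct := cartan_table
  simp only [List.range_succ, List.range_zero, List.nil_append, List.cons_append, List.map_cons, List.map_nil,
    List.cons.injEq, and_true] at hct
  obtain ⟨⟨k00, k01, k02, k03, k04, k05⟩, ⟨k10, k11, k12, k13, k14, k15⟩, ⟨k20, k21, k22, k23, k24, k25⟩,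
    ⟨k30, k31, k32, k33, k34, k35⟩, -, -⟩ := hct
  have hprod : ∀ i : Fin chevE6.rank, chi chevE6 (chevE6.simple i) d =
      x ^ chevE6.cartan 0 (chevE6.simple i) * a0 ^ chevE6.cartan 1 (chevE6.simple i) *
        y ^ chevE6.cartan 2 (chevE6.simple i) * a1 ^ chevE6.cartan 3 (chevE6.simple i) *
        fru y ^ chevE6.cartan 4 (chevE6.simple i) * fru x ^ chevE6.cartan 5 (chevE6.simple i) := by
    intro i
    show ∏ k : Fin 6, d k ^ chevE6.cartan k (chevE6.simple i) = _
    rw [hcf, Fin.prod_univ_six]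
    rfl
  have E0 := (hprod (⟨0, by decide⟩ : Fin chevE6.rank)).symm.trans (hchi _)
  have E1 := (hprod (⟨1, by decide⟩ : Fin chevE6.rank)).symm.trans (hchi _)
  have E2 := (hprod (⟨2, by decide⟩ : Fin chevE6.rank)).symm.trans (hchi _)
  have E3 := (hprod (⟨3, by decide⟩ : Fin chevE6.rank)).symm.trans (hchi _)
  simp only [k00, k01, k02, k03, k04, k05, k10, k11, k12, k13, k14, k15, k20, k21, k22, k23, k24, k25,
    k30, k31, k32, k33, k34, k35, zpow_zero, mul_one, zpow_neg, zpow_one, one_mul, zpow_two] at E0 E1 E2 E3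
  have hy : y = x * x := (mul_inv_eq_one.1 E0).symm
  have ha1 : a1 = a0 * a0 := (mul_inv_eq_one.1 E1).symm
  have ha1' : a1 = x * x * x := by
    rw [hy, mul_inv_eq_one, inv_mul_eq_iff_eq_mul] at E2
    exact mul_left_cancel (E2.symm.trans (by ac_rfl))
  have hr3 : fru x * fru x * fru x = x * x * x := by rw [← map_mul, ← map_mul, ← ha1', hf1]
  rw [hy, map_mul, mul_inv_eq_one, mul_assoc, inv_mul_eq_iff_eq_mul, inv_mul_eq_iff_eq_mul] at E3
  -- `a1² = a0 x² (fr x)²`
  have hsq : a1 * a1 = a0 * (x * x) * (fru x * fru x) := by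
    rw [E3]; ac_rfl
  set r := fru x
  have hr : r = x * x := by
    have h1 : a1 * a1 * (a1 * a1) = a0 * a0 * ((x * x) * (r * r) * ((x * x) * (r * r))) := by
      rw [hsq]; ac_rfl
    rw [← ha1, mul_assoc a1 a1 _] at h1
    have h2 : (a1 * a1) * a1 = (x * x) * (r * r) * ((x * x) * (r * r)) := by
      rw [← mul_left_cancel h1]; ac_rfl
    rw [ha1'] at h2
    have h3 : x * x * x * x * (x * x * x * x * x) = x * x * x * x * (r * r * r * r) := by
      calc _ = x * x * x * (x * x * x) * (x * x * x) := by ac_rfl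
        _ = _ := by rw [h2]; ac_rfl
    have h4 : x * x * x * x * x = r * r * r * r := mul_left_cancel h3
    rw [hr3] at h4
    exact (mul_left_cancel (a := x * x * x) (h4.symm.trans (by ac_rfl)))
  have hx3 : x * x * x = 1 := by
    rw [hr] at hr3
    have : x * x * x * (x * x * x) = x * x * x * 1 := by
      rw [mul_one]
      calc x * x * x * (x * x * x) = x * x * (x * x) * (x * x) := by ac_rfl
        _ = x * x * x := hr3
    exact mul_left_cancel this
  have ha1'' : a1 = 1 := ha1'.trans hx3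
  have ha0 : a0 = 1 := by
    have e5 : a1 * a1 = a0 * ((x * x * x) * (x * x * x)) := by rw [hsq, hr]; ac_rfl
    rw [ha1'', hx3, one_mul, mul_one] at e5
    exact e5.symm
  refine ⟨Units.ext (Subtype.ext (congrArg Units.val ha0 :)), Units.ext (Subtype.ext (congrArg Units.val ha1'' :)),
    ?_, ?_, ?_⟩
  · have := congrArg Units.val hy
    simp only [Units.val_mul] at this
    rw [sq]; exact this
  · have := congrArg Units.val hx3
    simp only [Units.val_mul, Units.val_one] at this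
    rw [pow_three, ← mul_assoc]; exact this
  · have := congrArg Units.val hr
    simp only [Units.val_mul] at this
    rw [← frq_apply (p := p) (f := f), sq]; exact this

/-- The kernel of a stem extension prime to `p` is an image of the torus kernel. -/
theorem exists_surjective_coprime (hf : 1 ≤ f) (hK : Fintype.card K = (p ^ f) ^ 2) {Γ : Type u} [Group Γ]
    [Finite Γ] (σ : Γ →* ↥(twistedE6 K (p ^ f))) (hσ : Cfsg.IsStemExtension σ)
    (hcop : ¬ p ∣ Nat.card σ.ker) :
    ∃ π : Multiplicative (ZMod (Nat.gcd 3 (p ^ f + 1))) →* σ.ker, Function.Surjective π := by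
  classical
  set T := twGrpE6 (K := K) hf hK
  obtain ⟨l, P⟩ := exists_pLift (σ := σ) hσ.1 hσ.2.1 hcop
  haveI : ∀ k, CharP (fldE6 K p f k) p := fun k =>
    (fldE6 K p f k).subtype.charP (fldE6 K p f k).subtype.injective p
  have hC : ∀ k, ∃ φ : SL(2, fldE6 K p f k) →* Γ, Copy σ l (T.X k) (T.Y k) φ := by
    intro k
    refine exists_copy P (T.faith k) ?_
    by_cases h2 : (-1 : fldE6 K p f k) = 1
    · exact Or.inl h2
    refine Or.inr fun e => h2 ?_
    have h1 : ∀ j, slH (T.X j) (T.Y j) ((1 : (fldE6 K p f j)ˣ) : fldE6 K p f j) = 1 := fun j => by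
      rw [Units.val_one, (T.faith j).rel.h_one]
    have hk := torus_ker T (Pi.mulSingle k (-1)) (by
      fin_cases k <;>
        simp [Pi.mulSingle_eq_same, Pi.mulSingle_eq_of_ne, (T.faith _).rel.h_one] <;> exact e)
    obtain ⟨c0, c1, c3, c23, -⟩ := hk
    fin_cases k
    · simpa [Pi.mulSingle_eq_same] using congrArg Units.val c0
    · simpa [Pi.mulSingle_eq_same] using congrArg Units.val c1
    · refine Subtype.ext ?_
      simp [Pi.mulSingle_eq_same] at c23 ⊢
      linear_combination c23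
    · refine Subtype.ext ?_
      simp [Pi.mulSingle_eq_same, Pi.mulSingle_eq_of_ne] at c3 ⊢
      linear_combination c3
  choose φ hφ using hC
  obtain ⟨Ψ, hΨ, hN⟩ := exists_torus_of_nlift T P φ hφ
    (fun k r hr hns => perm_keep k r hr fun i hi e => hns ⟨i, hi, e⟩) (fun k i hi => perm_neg k i hi)
  have hsurj : ∀ z ∈ σ.ker, ∃ c, Ψ c = z := fun z hz =>
    hN z (ker_le_nlift T hσ P φ hφ (fun k r hr hns => perm_keep k r hr fun i hi e => hns ⟨i, hi, e⟩) (fun k i hi => perm_neg k i hi) hz) hz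
  set Z := (σ.comp Ψ).ker
  have hform : ∀ c, σ (Ψ c) = slH (T.X 0) (T.Y 0) (c 0 : fldE6 K p f 0) *
      slH (T.X 1) (T.Y 1) (c 1 : fldE6 K p f 1) * slH (T.X 2) (T.Y 2) (c 2 : fldE6 K p f 2) *
      slH (T.X 3) (T.Y 3) (c 3 : fldE6 K p f 3) := fun c => by
    have e : c = Pi.mulSingle 0 (c 0) * Pi.mulSingle 1 (c 1) * Pi.mulSingle 2 (c 2) * Pi.mulSingle 3 (c 3) := by
      funext k
      fin_cases k <;> simp
    conv_lhs => rw [e]
    simp only [map_mul, hΨ]
    rw [(hφ 0).map_slD, (hφ 1).map_slD, (hφ 2).map_slD, (hφ 3).map_slD]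
  have hprop : ∀ c : Z, _ := fun c => torus_ker T (c : ∀ k, (fldE6 K p f k)ˣ)
    ((hform _).symm.trans c.2)
  let ι : Z →* K :=
    { toFun := fun c => (((c : ∀ k, (fldE6 K p f k)ˣ) 2 : fldE6 K p f 2) : K)
      map_one' := rfl
      map_mul' := fun a b => rfl }
  have hι : Function.Injective ι := by
    intro a b hab
    obtain ⟨a0, a1, a3, -, -⟩ := hprop a
    obtain ⟨b0, b1, b3, -, -⟩ := hprop b
    refine Subtype.ext (funext fun k => ?_)
    fin_cases k
    · exact a0.trans b0.symm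
    · exact a1.trans b1.symm
    · exact Units.ext (Subtype.ext hab)
    · refine Units.ext (Subtype.ext (a3.trans ?_))
      rw [show (((a : ∀ k, (fldE6 K p f k)ˣ) 2 : fldE6 K p f 2) : K) = _ from hab]
      exact b3.symm
  haveI : IsCyclic Z := isCyclic_of_subgroup_isDomain ι hι
  obtain ⟨g, hg⟩ := IsCyclic.exists_generator (α := Z)
  have hgn : g ^ Nat.gcd 3 (p ^ f + 1) = 1 := by
    apply hι
    obtain ⟨-, -, -, h3, hq⟩ := hprop g
    rw [map_pow, map_one]
    refine pow_gcd_eq_one.2 ⟨h3, ?_⟩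
    show (((g : ∀ k, (fldE6 K p f k)ˣ) 2 : fldE6 K p f 2) : K) ^ (p ^ f + 1) = 1
    rw [pow_succ, hq, ← pow_succ, h3]
  refine exists_surjective_zmod ⟨Ψ g, g.2⟩ (fun z => ?_) (Subtype.ext ?_)
  · obtain ⟨c, hc⟩ := hsurj z z.2
    obtain ⟨i, hi⟩ := Subgroup.mem_zpowers_iff.1 (hg ⟨c, show σ (Ψ c) = 1 by rw [hc]; exact z.2⟩)
    refine Subgroup.mem_zpowers_iff.2 ⟨i, Subtype.ext ?_⟩
    rw [Subgroup.coe_zpow, ← hc, ← map_zpow]
    exact congrArg Ψ (congrArg Subtype.val hi)
  · rw [Subgroup.coe_pow, ← map_pow, ← Subgroup.coe_pow, hgn, OneMemClass.coe_one, map_one]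
    rfl

end CfsgLib.TwMult.E6
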