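import Cfsg.Agent.Lib.TwMult.E6Data
import Cfsg.Agent.Lib.ChevMult.UCE
import Cfsg.Agent.Lib.ChevMult.Finiteness
import Cfsg.Agent.Lib.SteinbergPres.RepE6
import Cfsg.Agent.Lib.Twisted.PerfectE6
import Cfsg.Agent.Lib.Twisted.TwistedBN

/-!
For `3 ∣ q + 1` the preimage of ²E₆(q) in Steinberg's group of E₆(q²) has a perfect derived group containing the
whole centre, a stem extension with kernel of order three.
-/

set_option autoImplicit false
set_option maxRecDepth 100000
set_option linter.unusedSectionVars false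
set_option linter.style.haveILetI false

namespace CfsgLib.TwMult.E6

open Cfsg.Lie CfsgLib.Chevalley CfsgLib.InvCentralizers.AutChev CfsgLib.InvCentralizers.AutTwisted CfsgLib.SteinbergPres
open CfsgLib.Twisted (fullE6)

universe u

theorem chi_kernel {K : Type*} [Field K] (d : Fin chevE6.rank → Kˣ)
    (hchi : ∀ i : Fin chevE6.rank, chi chevE6 (chevE6.simple i) d = 1) :
    ∃ x : Kˣ, x * x * x = 1 ∧ d = (![x, 1, x * x, 1, x, x * x] : Fin 6 → Kˣ) := by
  have hct : ((List.range 6).map fun i => (List.range 6).map fun k => chevE6.cartan k (chevE6.simple i)) =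
      [[2, 0, -1, 0, 0, 0], [0, 2, 0, -1, 0, 0], [-1, 0, 2, -1, 0, 0], [0, -1, -1, 2, -1, 0],
       [0, 0, 0, -1, 2, -1], [0, 0, 0, 0, -1, 2]] := by decide +kernel
  simp only [List.range_succ, List.range_zero, List.nil_append, List.cons_append, List.map_cons, List.map_nil,
    List.cons.injEq, and_true] at hct
  obtain ⟨⟨k00, k01, k02, k03, k04, k05⟩, ⟨k10, k11, k12, k13, k14, k15⟩, ⟨k20, k21, k22, k23, k24, k25⟩,
    ⟨k30, k31, k32, k33, k34, k35⟩, ⟨k40, k41, k42, k43, k44, k45⟩, k50, k51, k52, k53, k54, k55⟩ := hct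
  obtain ⟨h0, h1, h2, h3, h4, h5, hd⟩ : ∃ h0 h1 h2 h3 h4 h5 : Kˣ,
      d = (![h0, h1, h2, h3, h4, h5] : Fin 6 → Kˣ) :=
    ⟨d (0 : Fin 6), d (1 : Fin 6), d (2 : Fin 6), d (3 : Fin 6), d (4 : Fin 6), d (5 : Fin 6), by
      funext k; revert k; show ∀ k : Fin 6, _; intro k; fin_cases k <;> rfl⟩
  subst hd
  have hprod : ∀ i : Fin chevE6.rank, chi chevE6 (chevE6.simple i) (![h0, h1, h2, h3, h4, h5] : Fin 6 → Kˣ) =
      h0 ^ chevE6.cartan 0 (chevE6.simple i) * h1 ^ chevE6.cartan 1 (chevE6.simple i) *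
        h2 ^ chevE6.cartan 2 (chevE6.simple i) * h3 ^ chevE6.cartan 3 (chevE6.simple i) *
        h4 ^ chevE6.cartan 4 (chevE6.simple i) * h5 ^ chevE6.cartan 5 (chevE6.simple i) := by
    intro i
    show ∏ k : Fin 6, (![h0, h1, h2, h3, h4, h5] : Fin 6 → Kˣ) k ^ chevE6.cartan k (chevE6.simple i) = _
    rw [Fin.prod_univ_six]
    rfl
  have E0 := (hprod (⟨0, by decide⟩ : Fin chevE6.rank)).symm.trans (hchi _)
  have E1 := (hprod (⟨1, by decide⟩ : Fin chevE6.rank)).symm.trans (hchi _)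
  have E2 := (hprod (⟨2, by decide⟩ : Fin chevE6.rank)).symm.trans (hchi _)
  have E3 := (hprod (⟨3, by decide⟩ : Fin chevE6.rank)).symm.trans (hchi _)
  have E4 := (hprod (⟨4, by decide⟩ : Fin chevE6.rank)).symm.trans (hchi _)
  have E5 := (hprod (⟨5, by decide⟩ : Fin chevE6.rank)).symm.trans (hchi _)
  simp only [k00, k01, k02, k03, k04, k05, k10, k11, k12, k13, k14, k15, k20, k21, k22, k23, k24, k25,
    k30, k31, k32, k33, k34, k35, k40, k41, k42, k43, k44, k45, k50, k51, k52, k53, k54, k55, zpow_zero,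
    mul_one, zpow_neg, zpow_one, one_mul, zpow_two] at E0 E1 E2 E3 E4 E5
  have e2 : h2 = h0 * h0 := (mul_inv_eq_one.1 E0).symm
  have e31 : h3 = h1 * h1 := (mul_inv_eq_one.1 E1).symm
  have e4 : h4 = h5 * h5 := (inv_mul_eq_one.1 E5)
  rw [mul_inv_eq_one, inv_mul_eq_iff_eq_mul, e2] at E2
  have e30 : h3 = h0 * h0 * h0 := mul_left_cancel (a := h0) (E2.symm.trans (by ac_rfl))
  rw [mul_inv_eq_one, inv_mul_eq_iff_eq_mul, e4] at E4
  have e35 : h3 = h5 * h5 * h5 := mul_right_cancel (b := h5) (E4.symm.trans (by ac_rfl))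
  rw [mul_inv_eq_one, mul_assoc, inv_mul_eq_iff_eq_mul, inv_mul_eq_iff_eq_mul, e2, e4] at E3
  -- `h₁ h₅² = h₀⁴`
  have e1 : h1 * (h5 * h5) = h0 * h0 * h0 * h0 :=
    mul_left_cancel (a := h0 * h0) ((E3.trans (by ac_rfl)).symm.trans (by rw [e30]; ac_rfl))
  have hz : h5 = h0 * h0 := by
    have h6 : h3 * (h5 * h5 * (h5 * h5)) = h0 * h0 * h0 * h0 * (h0 * h0 * h0 * h0) := by
      rw [← e1, e31]; ac_rfl
    rw [show h5 * h5 * (h5 * h5) = h3 * h5 by rw [e35]; ac_rfl, e30] at h6
    exact mul_left_cancel (a := h0 * h0 * h0 * (h0 * h0 * h0))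
      ((show _ = h0 * h0 * h0 * (h0 * h0 * h0 * h5) by ac_rfl).trans (h6.trans (by ac_rfl)))
  have hx : h0 * h0 * h0 = 1 := by
    have h7 := e35
    rw [e30, hz] at h7
    exact (mul_eq_left.1 ((show h0 * h0 * h0 * (h0 * h0 * h0) = h0 * h0 * (h0 * h0) * (h0 * h0) by
      ac_rfl).trans h7.symm))
  have h41 : h4 = h0 := by
    rw [e4, hz, show h0 * h0 * (h0 * h0) = h0 * h0 * h0 * h0 by ac_rfl, hx, one_mul]
  have h11 : h1 = 1 := by
    rw [hz, show h0 * h0 * (h0 * h0) = h0 * (h0 * h0 * h0) by ac_rfl,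
      show h0 * h0 * h0 * h0 = h0 * (h0 * h0 * h0) by ac_rfl, hx, mul_one] at e1
    exact mul_eq_right.1 e1
  exact ⟨h0, hx, by rw [e2, e30, hx, h41, hz, h11]⟩

theorem node_comm : ∀ ij ∈ ([(0, 5), (2, 4)] : List (ℕ × ℕ)), ∀ r ∈ [chevE6.simple ij.1, chevE6.neg (chevE6.simple ij.1)],
    ∀ r' ∈ [chevE6.simple ij.2, chevE6.neg (chevE6.simple ij.2)],
      r < chevE6.nroots ∧ r' < chevE6.nroots ∧ r' ≠ r ∧ r' ≠ chevE6.neg r ∧ chevE6.commTerms r r' = [] := by
  decide +kernel

variable {K : Type u} [Field K]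

theorem stGen_commute {r r' : ℕ} (hr : r < chevE6.nroots) (hr' : r' < chevE6.nroots) (h1 : r' ≠ r)
    (h2 : r' ≠ chevE6.neg r) (hC : chevE6.commTerms r r' = []) (t u : K) :
    Commute (chevE6.stGen K r t) (chevE6.stGen K r' u) := by
  have h := (stRel_stGen chevE6 K).comm r hr r' hr' h1 h2 t u
  rw [ChevalleyDatum.commWord, hC] at h
  simp only [List.map_nil, List.prod_nil] at h
  show _ = _
  calc chevE6.stGen K r t * chevE6.stGen K r' u
      = chevE6.stGen K r t * chevE6.stGen K r' u *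
          ((chevE6.stGen K r' u)⁻¹ * (chevE6.stGen K r t)⁻¹ * chevE6.stGen K r' u * chevE6.stGen K r t) := by
        rw [h, mul_one]
    _ = _ := by group

variable [Fintype K] {p f : ℕ} [Fact p.Prime] [CharP K p]

local notation "𝔾" => twistedE6 K (p ^ f)

theorem exists_cover (hf : 1 ≤ f) (hK : Fintype.card K = (p ^ f) ^ 2) (h3 : 3 ∣ p ^ f + 1) :
    ∃ (Γ : Type u) (_ : Group Γ) (_ : Finite Γ) (σ : Γ →* ↥𝔾),
      Cfsg.IsStemExtension σ ∧ Nonempty (σ.ker ≃* Multiplicative (ZMod 3)) := by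
  classical
  have hp : p.Prime := Fact.out
  have hq : IsPrimePow (p ^ f) := ⟨p, f, hp.prime, by omega, rfl⟩
  have hp3 : ¬ p = 3 := by
    rintro rfl
    have : 3 ∣ 3 ^ f := dvd_pow_self 3 (by omega)
    omega
  set T := twGrpE6 (K := K) hf hK
  haveI : Finite (chevE6.SteinbergGroup K) := CfsgLib.ChevMult.finite_st fullE6
  have hcard : Nat.card (Subgroup.center (chevE6.SteinbergGroup K)) = 3 := by
    rw [cardCenterE6 fullE6 K, hK]
    refine Nat.gcd_eq_left ?_
    obtain ⟨a, ha⟩ : ∃ a, p ^ f = a + 1 := ⟨p ^ f - 1, by have := hq.two_le; omega⟩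
    rw [ha, show (a + 1) ^ 2 - 1 = (a + 1 + 1) * a from Nat.sub_eq_of_eq_add (by ring)]
    exact dvd_mul_of_dvd_left (ha ▸ h3) a
  haveI : Fact (Nat.Prime 3) := ⟨Nat.prime_three⟩
  set P : Subgroup (chevE6.SteinbergGroup K) := (𝔾).comap (theta fullE6)
  let ρ : P →* ↥𝔾 := ((theta fullE6).comp P.subtype).codRestrict 𝔾 fun x => x.2
  have hρ : ∀ {x : P}, x ∈ ρ.ker ↔ (x : chevE6.SteinbergGroup K) ∈ Subgroup.center (chevE6.SteinbergGroup K) :=
    fun {x} => by
      rw [MonoidHom.mem_ker, ← theta_eq_one_iff fullE6]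
      exact ⟨fun e => congrArg Subtype.val e, fun e => Subtype.ext e⟩
  have hρs : Function.Surjective ρ := fun g => by
    obtain ⟨x, hx⟩ : (g : GL chevE6.Idx K) ∈ (theta (K := K) fullE6).range := by
      rw [theta_range fullE6]; exact T.le g.2
    exact ⟨⟨x, show theta fullE6 x ∈ 𝔾 from hx.symm ▸ g.2⟩, Subtype.ext hx⟩
  have hρc : ρ.ker ≤ Subgroup.center P := fun x hx => Subgroup.mem_center_iff.2 fun y =>
    Subtype.ext (Subgroup.mem_center_iff.1 (hρ.1 hx) (y : chevE6.SteinbergGroup K))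
  obtain ⟨hsurj, hperf⟩ :=
    CfsgLib.ChevMult.perfect_commutator ρ hρs hρc (CfsgLib.Twisted.twistedE6_perfect hq hK)
  -- elements of order `p` lie in the derived group
  let D0 : Subgroup (chevE6.SteinbergGroup K) := (commutator P).map P.subtype
  have hord : ∀ x ∈ P, x ^ p = 1 → x ∈ D0 := by
    intro x hx hxp
    obtain ⟨d, hd⟩ := hsurj (ρ ⟨x, hx⟩)
    have hk : (d : P)⁻¹ * ⟨x, hx⟩ ∈ ρ.ker := by
      rw [MonoidHom.mem_ker, map_mul, map_inv, show ρ (d : P) = ρ ⟨x, hx⟩ from hd, inv_mul_cancel]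
    set k := (d : P)⁻¹ * ⟨x, hx⟩ with hkdef
    have hk3 : k ^ 3 = 1 := by
      have h1 := pow_card_eq_one' (x := (⟨(k : chevE6.SteinbergGroup K), hρ.1 hk⟩ :
        Subgroup.center (chevE6.SteinbergGroup K)))
      rw [hcard] at h1
      exact Subtype.ext (congrArg Subtype.val h1 :)
    have hxd : (⟨x, hx⟩ : P) = (d : P) * k := by rw [hkdef]; group
    let q : P →* P ⧸ commutator P := QuotientGroup.mk' _
    have hq1 : q ⟨x, hx⟩ = q k := by
      rw [hxd, map_mul, show q (d : P) = 1 from (QuotientGroup.eq_one_iff _).2 d.2, one_mul]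
    have hqp : q k ^ p = 1 := by
      rw [← hq1, ← map_pow, show (⟨x, hx⟩ : P) ^ p = 1 from Subtype.ext hxp, map_one]
    have hq3 : q k ^ 3 = 1 := by rw [← map_pow, hk3, map_one]
    have hone : q k = 1 := by
      have h1 := Nat.dvd_gcd (orderOf_dvd_of_pow_eq_one hqp) (orderOf_dvd_of_pow_eq_one hq3)
      rw [((Nat.coprime_primes hp Nat.prime_three).2 hp3).gcd_eq_one, Nat.dvd_one, orderOf_eq_one_iff] at h1
      exact h1
    exact ⟨⟨x, hx⟩, (QuotientGroup.eq_one_iff _).1 (hq1.trans hone), rfl⟩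
  -- the pairs of orthogonal nodes
  have hpair : ∀ (k : Fin 4) (i j : Fin chevE6.rank), orbE6 k = [i, j] →
      (((i : ℕ), (j : ℕ)) ∈ ([(0, 5), (2, 4)] : List (ℕ × ℕ))) → fldE6 K p f k = ⊤ → ∀ u : Kˣ,
      hSt chevE6 K i (u : K) * hSt chevE6 K j (frq K p f (u : K)) ∈ D0 := by
    intro k i j hO hij hL u
    have hmemL : ∀ t : K, t ∈ fldE6 K p f k := fun t => by rw [hL]; trivial
    have hc : ∀ r ∈ [chevE6.simple i, chevE6.neg (chevE6.simple i)],
        ∀ r' ∈ [chevE6.simple j, chevE6.neg (chevE6.simple j)], ∀ t v : K,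
          Commute (chevE6.stGen K r t) (chevE6.stGen K r' v) := fun r hr r' hr' t v => by
      obtain ⟨a, b, c, d, e⟩ := node_comm _ hij r hr r' hr'
      exact stGen_commute a b c d e t v
    set xi : K → chevE6.SteinbergGroup K := fun t => chevE6.stGen K (chevE6.simple i) t with hxi
    set yi : K → chevE6.SteinbergGroup K := fun t => chevE6.stGen K (chevE6.neg (chevE6.simple i)) t with hyi
    set xj : K → chevE6.SteinbergGroup K := fun t => chevE6.stGen K (chevE6.simple j) t with hxj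
    set yj : K → chevE6.SteinbergGroup K := fun t => chevE6.stGen K (chevE6.neg (chevE6.simple j)) t with hyj
    have hpow : ∀ (r : ℕ), r < chevE6.nroots → ∀ t : K, chevE6.stGen K r t ^ p = 1 := fun r hr t => by
      have : ∀ n : ℕ, chevE6.stGen K r t ^ n = chevE6.stGen K r ((n : K) * t) := fun n => by
        induction n with
        | zero => rw [pow_zero, Nat.cast_zero, zero_mul, stGen_zero hr]
        | succ n ih => rw [pow_succ, ih, (stRel_stGen chevE6 K).add r hr, Nat.cast_succ, add_mul, one_mul]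
      rw [this, CharP.cast_eq_zero, zero_mul, stGen_zero hr]
    have hsi := simple_lt fullE6 i
    have hsj := simple_lt fullE6 j
    have hni := fullE6.cert.wf.neg_lt _ hsi
    have hnj := fullE6.cert.wf.neg_lt _ hsj
    have hX : ∀ t, xi t * xj (frq K p f t) ∈ D0 := fun t => by
      refine hord _ ?_ ?_
      · show theta fullE6 _ ∈ 𝔾
        rw [map_mul, theta_gen fullE6 hsi, theta_gen fullE6 hsj]
        have := T.xmem k ⟨t, hmemL t⟩
        rwa [hO, tx, tx, tx, mul_one] at this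
      · rw [(hc _ (by simp) _ (by simp) t (frq K p f t)).mul_pow, hpow _ hsi, hpow _ hsj, one_mul]
    have hY : ∀ t, yi t * yj (frq K p f t) ∈ D0 := fun t => by
      refine hord _ ?_ ?_
      · show theta fullE6 _ ∈ 𝔾
        rw [map_mul, theta_gen fullE6 hni, theta_gen fullE6 hnj]
        have := T.ymem k ⟨t, hmemL t⟩
        rwa [hO, ty, ty, ty, mul_one] at this
      · rw [(hc _ (by simp) _ (by simp) t (frq K p f t)).mul_pow, hpow _ hni, hpow _ hnj, one_mul]
    have hN : ∀ v : K, nSt chevE6 K i v * nSt chevE6 K j (frq K p f v) ∈ D0 := fun v => by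
      have e := slN_mul (x := xi) (y := yi) (x' := fun t => xj (frq K p f t)) (y' := fun t => yj (frq K p f t))
        (fun a b => (hc _ (by simp) _ (by simp) b (frq K p f a)).symm)
        (fun a b => (hc _ (by simp) _ (by simp) b (frq K p f a)).symm)
        (fun a b => (hc _ (by simp) _ (by simp) b (frq K p f a)).symm) v
      have e' : slN (fun t => xi t * xj (frq K p f t)) (fun t => yi t * yj (frq K p f t)) v =
          nSt chevE6 K i v * nSt chevE6 K j (frq K p f v) := by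
        refine e.trans ?_
        simp only [slN, nSt, hxi, hyi, hxj, hyj, map_neg, map_inv₀]
      rw [← e']
      exact mul_mem (mul_mem (hX _) (hY _)) (hX _)
    have hcomm : ∀ a b : K, Commute (nSt chevE6 K j a) (nSt chevE6 K i b) := fun a b => by
      have h' : ∀ r ∈ [chevE6.simple i, chevE6.neg (chevE6.simple i)], ∀ t, Commute (nSt chevE6 K j a)
          (chevE6.stGen K r t) := fun r hr t =>
        (((hc r hr _ (by simp) t a).symm.mul_left (hc r hr _ (by simp) t (-a⁻¹)).symm).mul_left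
          (hc r hr _ (by simp) t a).symm)
      exact ((h' _ (by simp) b).mul_right (h' _ (by simp) _)).mul_right (h' _ (by simp) b)
    have e : hSt chevE6 K i (u : K) * hSt chevE6 K j (frq K p f (u : K)) =
        nSt chevE6 K i (u : K) * nSt chevE6 K j (frq K p f (u : K)) *
          (nSt chevE6 K i (-1) * nSt chevE6 K j (frq K p f (-1))) := by
      simp only [hSt, map_neg, map_one]
      calc _ = nSt chevE6 K i (u : K) * (nSt chevE6 K i (-1) * nSt chevE6 K j (frq K p f (u : K))) *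
            nSt chevE6 K j (-1) := by group
        _ = _ := by rw [← (hcomm _ _).eq]; group
    rw [e]
    exact mul_mem (hN _) (hN _)
  -- the centre
  obtain ⟨σ₀, η₀, cart, coro, par, dep, w0, C, hE⟩ := hasStCert_of_mem fullE6.mem K
  obtain ⟨⟨z, hz⟩, hz1⟩ : ∃ z : Subgroup.center (chevE6.SteinbergGroup K), z ≠ 1 := by
    haveI : Nontrivial (Subgroup.center (chevE6.SteinbergGroup K)) := by
      rw [← Finite.one_lt_card_iff_nontrivial, hcard]; norm_num
    exact exists_ne 1
  have hzθ := (theta_eq_one_iff fullE6 z).2 hz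
  obtain ⟨c, hc⟩ := C.exists_torPhi fullE6 hE (mem_tor_of_theta fullE6 hzθ)
  have hct : torusHom chevE6 K c = 1 := by rw [← C.theta_torPhi fullE6 hE, hc]; exact hzθ
  obtain ⟨x, hx3, hcx⟩ := chi_kernel c fun i => by
    have h2 := torusHom_simple fullE6 c i 1
    rw [hct, one_mul, inv_one, mul_one, mul_one] at h2
    exact Units.ext (xG_injective fullE6.cert (simple_lt fullE6 i) h2).symm
  have hxq : ∀ v : Kˣ, v * v * v = 1 → frq K p f (v : K) = (v : K) * v := fun v hv => by
    have hv3 : (v : K) ^ 3 = 1 := by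
      rw [pow_three, ← mul_assoc, ← Units.val_mul, ← Units.val_mul, hv, Units.val_one]
    obtain ⟨m, hm⟩ : ∃ m, p ^ f = 3 * m + 2 := ⟨p ^ f / 3, by omega⟩
    rw [frq_apply, hm, pow_add, pow_mul, hv3, one_pow, one_mul, sq]
  let i0 : Fin chevE6.rank := ⟨0, by decide⟩
  let i2 : Fin chevE6.rank := ⟨2, by decide⟩
  let i4 : Fin chevE6.rank := ⟨4, by decide⟩
  let i5 : Fin chevE6.rank := ⟨5, by decide⟩
  have hzD : z ∈ D0 := by
    have hc' : c = Pi.mulSingle i0 x * Pi.mulSingle i5 (x * x) * (Pi.mulSingle i2 (x * x) * Pi.mulSingle i4 x) := by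
      rw [hcx]
      have key : (Pi.mulSingle (0 : Fin 6) x * Pi.mulSingle (5 : Fin 6) (x * x) *
          (Pi.mulSingle (2 : Fin 6) (x * x) * Pi.mulSingle (4 : Fin 6) x) : Fin 6 → Kˣ) =
          ![x, 1, x * x, 1, x, x * x] := by
        funext k; fin_cases k <;> simp
      exact key.symm
    have hsingle : ∀ (i : Fin chevE6.rank) (u : Kˣ), C.torPhi fullE6 hE (Pi.mulSingle i u) = hSt chevE6 K i u :=
      fun i u => MonoidHom.noncommPiCoprod_mulSingle _ _ _
    rw [← hc, hc', map_mul, map_mul, map_mul, hsingle, hsingle, hsingle, hsingle]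
    have h1 := hpair 2 i0 i5 rfl (by simp [i0, i5]) rfl x
    have h2 := hpair 3 i2 i4 rfl (by simp [i2, i4]) rfl (x * x)
    rw [hxq x hx3] at h1
    rw [hxq (x * x) (by rw [show x * x * (x * x) * (x * x) = x * x * x * (x * x * x) by ac_rfl, hx3, one_mul]),
      show ((x * x : Kˣ) : K) * ((x * x : Kˣ) : K) = ((x * x * x * x : Kˣ) : K) by push_cast; ring,
      show x * x * x * x = x by rw [hx3, one_mul]] at h2
    simpa [Units.val_mul] using mul_mem h1 h2
  refine ⟨↥(commutator P), inferInstance, inferInstance, ρ.comp (commutator P).subtype,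
    ⟨hsurj, fun w hw => Subgroup.mem_center_iff.2 fun y =>
      Subtype.ext (Subgroup.mem_center_iff.1 (hρc (show (w : P) ∈ ρ.ker from hw)) (y : P)),
      by rw [hperf]; exact le_top⟩, ?_⟩
  -- the kernel is the centre
  have hle : Subgroup.center (chevE6.SteinbergGroup K) ≤ D0 := by
    intro w hw
    obtain ⟨n, hn⟩ : (⟨w, hw⟩ : Subgroup.center (chevE6.SteinbergGroup K)) ∈
        Subgroup.zpowers (⟨z, hz⟩ : Subgroup.center (chevE6.SteinbergGroup K)) :=
      mem_zpowers_of_prime_card hcard hz1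
    rw [show w = z ^ n from (congrArg Subtype.val hn).symm]
    exact zpow_mem hzD n
  let ι : (ρ.comp (commutator P).subtype).ker →* Subgroup.center (chevE6.SteinbergGroup K) :=
    { toFun := fun w => ⟨((w : commutator P) : P), hρ.1 w.2⟩
      map_one' := rfl
      map_mul' := fun a b => rfl }
  have hι : Function.Bijective ι := by
    refine ⟨fun a b e => Subtype.ext (Subtype.ext (Subtype.ext (congrArg Subtype.val e :))), fun w => ?_⟩
    obtain ⟨d, hd, e⟩ := hle w.2
    exact ⟨⟨⟨d, hd⟩, hρ.2 (show (d : chevE6.SteinbergGroup K) ∈ _ by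
      rw [show (d : chevE6.SteinbergGroup K) = w from e]; exact w.2)⟩, Subtype.ext e⟩
  haveI : IsCyclic (Subgroup.center (chevE6.SteinbergGroup K)) := isCyclic_of_prime_card hcard
  exact ⟨(MulEquiv.ofBijective ι hι).trans ((zmodCyclicMulEquiv ‹_›).symm.trans
    (AddEquiv.toMultiplicative (ZMod.ringEquivCongr hcard).toAddEquiv))⟩

end CfsgLib.TwMult.E6
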