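import Cfsg.Agent.Lib.TwMult.E6U
import Cfsg.Agent.Lib.SchurMult.Reduce

/-!
No stem extension of ²E₆(q), `q ≠ 2`, has a kernel of order divisible by the characteristic: the unipotent part
splits over the kernel.
-/

set_option autoImplicit false
set_option maxRecDepth 100000
set_option maxHeartbeats 1000000
set_option linter.unusedSectionVars false
set_option linter.unusedSimpArgs false
set_option linter.style.haveILetI false

namespace CfsgLib.TwMult.E6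

open Cfsg.Lie CfsgLib.Chevalley CfsgLib.InvCentralizers.AutChev CfsgLib.InvCentralizers.AutTwisted
open CfsgLib.Twisted (Orb orbRoots checkOrd checkOrd_cons graphSigmaE6 graphEtaE6 fullE6 mem_orbRoots_cons)
open CfsgLib.SchurMult
open scoped commutatorElement

universe u

variable {K : Type u} [Field K] [Fintype K] {p f : ℕ} [Fact p.Prime] [CharP K p]

local notation "𝔾" => twistedE6 K (p ^ f)

theorem commute_Xo {i j : Fin 24} (h : ∀ x ∈ oR i, ∀ y ∈ oR j, commB x y = true) {x y : ↥𝔾}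
    (hx : x ∈ Xo K p f i) (hy : y ∈ Xo K p f j) : Commute x y := by
  refine Subtype.ext (show Commute (x : GL chevE6.Idx K) y from ?_)
  have hx' : (x : GL chevE6.Idx K) ∈ rootsU chevE6 K {s | s ∈ oR i} := hx
  have hy' : (y : GL chevE6.Idx K) ∈ rootsU chevE6 K {s | s ∈ oR j} := hy
  generalize (x : GL chevE6.Idx K) = g at hx'
  generalize (y : GL chevE6.Idx K) = g' at hy'
  induction hx' using rootsU_induction fullE6.cert with
  | h1 => exact Commute.one_left _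
  | hx r hr t =>
    induction hy' using rootsU_induction fullE6.cert with
    | h1 => exact Commute.one_right _
    | hx s hs u => exact commute_of_commB (h r hr s hs) (graph_orb i r hr).2.2.1 (graph_orb j s hs).2.2.1 t u
    | hmul a b _ _ ha hb => exact ha.mul_right hb
  | hmul a b _ _ ha hb => exact ha.mul_left hb

theorem comm_two {G : Type*} [Group G] {x₁ x₂ y₁ y₂ : G} (h1 : Commute x₁ y₂) (h2 : Commute x₂ y₁)
    (h3 : Commute x₁ x₂) (h4 : Commute y₁ y₂) (h5 : Commute ⁅x₁, y₁⁆ y₂) (h6 : Commute ⁅x₁, y₁⁆ x₂) :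
    ⁅x₁ * x₂, y₁ * y₂⁆ = ⁅x₁, y₁⁆ * ⁅x₂, y₂⁆ := by
  have e2 : ⁅x₁, y₁⁆ * ⁅x₂, y₂⁆ = ⁅x₂, y₂⁆ * ⁅x₁, y₁⁆ :=
    (((h6.mul_right h5).mul_right h6.inv_right).mul_right h5.inv_right).eq
  calc ⁅x₁ * x₂, y₁ * y₂⁆ = x₁ * (x₂ * y₁) * y₂ * (x₂⁻¹ * x₁⁻¹) * (y₂⁻¹ * y₁⁻¹) := by
        simp only [commutatorElement_def]; group
    _ = x₁ * (y₁ * x₂) * y₂ * (x₂⁻¹ * x₁⁻¹) * (y₂⁻¹ * y₁⁻¹) := by rw [h2.eq]
    _ = x₁ * y₁ * (⁅x₂, y₂⁆ * y₂) * x₁⁻¹ * (y₂⁻¹ * y₁⁻¹) := by simp only [commutatorElement_def]; group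
    _ = x₁ * y₁ * ⁅x₂, y₂⁆ * (y₂ * x₁⁻¹) * (y₂⁻¹ * y₁⁻¹) := by group
    _ = x₁ * y₁ * ⁅x₂, y₂⁆ * (x₁⁻¹ * y₂) * (y₂⁻¹ * y₁⁻¹) := by rw [h1.inv_left.eq]
    _ = x₁ * y₁ * (⁅x₂, y₂⁆ * (x₁⁻¹ * y₁⁻¹)) := by group
    _ = x₁ * y₁ * ((x₁⁻¹ * y₁⁻¹) * ⁅x₂, y₂⁆) := by
        have hx : Commute ⁅x₂, y₂⁆ x₁ := by
          rw [commutatorElement_def]
          exact ((((h3.symm).mul_left h1.symm).mul_left h3.symm.inv_left).mul_left h1.symm.inv_left)
        have hy : Commute ⁅x₂, y₂⁆ y₁ := by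
          rw [commutatorElement_def]
          exact ((((h2).mul_left h4.symm).mul_left h2.inv_left).mul_left h4.symm.inv_left)
        rw [(hx.inv_right.mul_right hy.inv_right).eq]
    _ = _ := by simp only [commutatorElement_def]; group

/-- An element of a decomposable orbit is a commutator. -/
theorem exists_comm (hf : 1 ≤ f) (hK : Fintype.card K = (p ^ f) ^ 2) {d : ℕ × ℕ × ℕ × ℕ × ℕ × ℕ}
    (hd : d ∈ decE6) {v : ↥𝔾} (hv : v ∈ Xo K p f d.1) :
    ∃ y ∈ Xo K p f d.2.1, ∃ z ∈ Xo K p f d.2.2.1, v = ⁅y, z⁆ := by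
  obtain ⟨a, b, c, ra, rb, rc⟩ := d
  obtain ⟨-, hm, -⟩ := pow_facts hf hK
  have hB := decE6_ok _ hd
  simp only [decB, Bool.and_eq_true, decide_eq_true_eq, List.all_eq_true] at hB
  obtain ⟨⟨⟨⟨⟨⟨ha24, hb24, hc24, hab, hac, hra, hrb, hrc⟩, hsh⟩, hAB⟩, hAC⟩, hC⟩, hσ⟩ := hB
  obtain ⟨ga1, ga2, galt, -, -, gac⟩ := graph_orb ⟨a, ha24⟩ ra hra
  obtain ⟨gb1, gb2, gblt, -, -, gbc⟩ := graph_orb ⟨b, hb24⟩ rb hrb
  obtain ⟨gc1, gc2, gclt, -, gc5, gcc⟩ := graph_orb ⟨c, hc24⟩ rc hrc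
  have hS := fullE6.toStd
  obtain ⟨aa, haa, hva, hfa⟩ := eq_el hf hK (i := ⟨a, ha24⟩) hv v.2 hra
  have hbc : rb ≠ rc ∧ rb ≠ chevE6.neg rc ∧ ∃ C : ℤ, chevE6.commTerms rc rb = [(ra, C, 1, 1)] ∧ (C = 1 ∨ C = -1) := by
    have hpos := hS.ne_neg (oR_pos (i := ⟨c, hc24⟩) hrc) (oR_pos (i := ⟨b, hb24⟩) hrb)
    split at hC
    · rename_i k C heq
      simp only [Bool.and_eq_true, Bool.or_eq_true, beq_iff_eq] at hC
      rw [Nat.eq_of_beq_eq_true hC.1] at heq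
      refine ⟨?_, hpos, C, heq, hC.2⟩
      rintro rfl
      have : ∀ r : Fin chevE6.nroots, chevE6.commTerms r r = [] := by decide +kernel
      rw [show chevE6.commTerms rb rb = [] from this ⟨rb, gblt⟩] at heq
      exact List.cons_ne_nil _ _ heq.symm
    · exact absurd hC Bool.false_ne_true
  obtain ⟨hne, hneg, C, hcomm, hC1⟩ := hbc
  set s : K := -(C : K) * aa ra
  have hz : el p f rc (1 : K) ∈ 𝔾 := el_mem hf hK (i := ⟨c, hc24⟩) hrc fun _ => one_pow _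
  have hy : el p f rb s ∈ 𝔾 := el_mem hf hK (i := ⟨b, hb24⟩) hrb fun hsb => by
    have hsa : graphSigmaE6 ra = ra := by
      by_contra hne'
      rw [if_neg hne'] at hσ
      simp only [Bool.and_eq_true, decide_eq_true_eq] at hσ
      exact hσ.1.1.1.1.1.1 hsb
    rw [show s = -(C : K) * aa ra from rfl, mul_pow, hfa hsa]
    rcases hC1 with e | e <;> simp [e, hm]
  have hxc : ⁅xG fullE6.cert rb s, xG fullE6.cert rc (1 : K)⁆ = xG fullE6.cert ra (aa ra) := by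
    have := congrArg (fun g : ↥(chevE6.group K) => (g : GL chevE6.Idx K))
      (CfsgLib.ChevMult.xg_comm_single hS gclt gblt hne hneg hcomm (1 : K) s)
    simp only [commutatorElement_def, Subgroup.coe_mul, Subgroup.coe_inv, CfsgLib.ChevMult.coe_xg] at this
    rw [commutatorElement_def]
    refine this.trans (congrArg _ ?_)
    rcases hC1 with e | e <;> simp [s, e]
  refine ⟨⟨_, hy⟩, el_mem_rootsU (i := ⟨b, hb24⟩) hrb s, ⟨_, hz⟩, el_mem_rootsU (i := ⟨c, hc24⟩) hrc 1, ?_⟩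
  refine Subtype.ext ?_
  rw [show ((⁅(⟨_, hy⟩ : ↥𝔾), ⟨_, hz⟩⁆ : ↥𝔾) : GL chevE6.Idx K) = ⁅el p f rb s, el p f rc (1 : K)⁆ from
    map_commutatorElement (Subgroup.subtype _) (⟨_, hy⟩ : ↥𝔾) ⟨_, hz⟩]
  by_cases hsa : graphSigmaE6 ra = ra
  · rw [if_pos hsa, decide_eq_true_eq] at hσ
    refine hva.trans ?_
    rw [el, el, el, if_pos hsa, if_pos hσ.1, if_pos hσ.2, hxc]
  rw [if_neg hsa] at hσ
  simp only [Bool.and_eq_true, decide_eq_true_eq] at hσ
  obtain ⟨⟨⟨⟨⟨⟨hsb, hsc⟩, k1⟩, k2⟩, k3⟩, k4⟩, hC'⟩ := hσ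
  -- the commutator is a fixed element of the orbit with the same coordinate at `ra`
  obtain ⟨gb1', -, gblt', -, -, -⟩ := graph_orb ⟨b, hb24⟩ _ gb1
  obtain ⟨gc1', -, gclt', -, -, -⟩ := graph_orb ⟨c, hc24⟩ _ gc1
  obtain ⟨-, -, galt', -, -, -⟩ := graph_orb ⟨a, ha24⟩ _ ga1
  set s' := CfsgLib.Twisted.graphTwist graphEtaE6 (p ^ f) rb s
  set u' := CfsgLib.Twisted.graphTwist graphEtaE6 (p ^ f) rc (1 : K)
  obtain ⟨β, hxc'⟩ : ∃ β, ⁅xG fullE6.cert (graphSigmaE6 rb) s', xG fullE6.cert (graphSigmaE6 rc) u'⁆ =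
      xG fullE6.cert (graphSigmaE6 ra) β := by
    split at hC'
    · rename_i k C' heq
      rw [Nat.eq_of_beq_eq_true hC'] at heq
      have hne' : graphSigmaE6 rb ≠ graphSigmaE6 rc := fun e => hne (by rw [← gb2, e, gc2])
      have := congrArg (fun g : ↥(chevE6.group K) => (g : GL chevE6.Idx K))
        (CfsgLib.ChevMult.xg_comm_single hS gclt' gblt' hne'
          (hS.ne_neg (oR_pos (i := ⟨c, hc24⟩) gc1) (oR_pos (i := ⟨b, hb24⟩) gb1)) heq u' s')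
      simp only [commutatorElement_def, Subgroup.coe_mul, Subgroup.coe_inv, CfsgLib.ChevMult.coe_xg] at this
      exact ⟨_, by rw [commutatorElement_def]; exact this⟩
    · exact absurd hC' Bool.false_ne_true
  have hw : ⁅el p f rb s, el p f rc (1 : K)⁆ =
      xG fullE6.cert ra (aa ra) * xG fullE6.cert (graphSigmaE6 ra) β := by
    rw [el, el, if_neg hsb, if_neg hsc, comm_two (commute_of_commB k3 gblt gclt' _ _)
      (commute_of_commB k4 gblt' gclt _ _) (commute_of_commB k1 gblt gblt' _ _)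
      (commute_of_commB k2 gclt gclt' _ _), hxc, hxc']
    · rw [hxc]
      exact commute_of_commB (hAC ra hra _ gc1) galt gclt' _ _
    · rw [hxc]
      exact commute_of_commB (hAB ra hra _ gb1) galt gblt' _ _
  have hw2 : ⁅el p f rb s, el p f rc (1 : K)⁆ ∈ rootsU chevE6 K {x | x ∈ oR a} := by
    rw [hw]
    exact mul_mem (xG_mem_rootsU fullE6.cert (show ra ∈ {x | x ∈ oR a} from hra) _)
      (xG_mem_rootsU fullE6.cert (show graphSigmaE6 ra ∈ {x | x ∈ oR a} from ga1) _)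
  have hwG : ⁅el p f rb s, el p f rc (1 : K)⁆ ∈ 𝔾 := by
    rw [commutatorElement_def]
    exact mul_mem (mul_mem (mul_mem hy hz) (inv_mem hy)) (inv_mem hz)
  obtain ⟨a', ha', hva', -⟩ := eq_el hf hK (i := ⟨a, ha24⟩) hw2 hwG hra
  have hval : a' ra = aa ra := by
    have e1 : prodU fullE6.cert (oR a) (fun x => if x = ra then aa ra else β) =
        xG fullE6.cert ra (aa ra) * xG fullE6.cert (graphSigmaE6 ra) β := by
      have hshape : ∀ i : Fin 24, ∀ r ∈ oR i, graphSigmaE6 r ≠ r →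
          oR i = [r, graphSigmaE6 r] ∨ oR i = [graphSigmaE6 r, r] := by decide +kernel
      rcases hshape ⟨a, ha24⟩ ra hra hsa with e | e <;> rw [show oR a = _ from e] <;> simp [prodU, hsa]
      exact ((commute_of_commB (gac hsa) galt galt' _ _).eq).symm
    have := CfsgLib.Twisted.decomp_unique fullE6.toStd _ [] (oE6_single ⟨a, ha24⟩) (a := a')
      (b := fun x => if x = ra then aa ra else β) (v := (1 : GL chevE6.Idx K)) (w := 1) (one_mem _) (one_mem _)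
      (by rw [one_mul, one_mul]; exact ha'.symm.trans (hw.trans e1.symm)) ra hra
    simpa using this
  refine hva.trans ?_
  rw [hva', hval]

/-- The lifts of an orbit commute. -/
theorem lifts_commute (hf : 1 ≤ f) (hK : Fintype.card K = (p ^ f) ^ 2) (hq2 : p ^ f ≠ 2) {Γ : Type u} [Group Γ]
    [Finite Γ] (σ : Γ →* ↥𝔾) (hs : Function.Surjective σ) (hc : σ.ker ≤ Subgroup.center Γ) (i : Fin 24) :
    ∀ a b, σ a ∈ Xo K p f i → σ b ∈ Xo K p f i → Commute a b := by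
  obtain ⟨-, hkill⟩ := exists_kills (K := K) hf hK hq2
  have hdec : ∀ d ∈ decE6, ∀ a b, σ a ∈ Xo K p f d.1 → σ b ∈ Xo K p f d.1 → Commute a b := by
    intro d hd a b ha hb
    have hB := decE6_ok _ hd
    simp only [decB, Bool.and_eq_true, decide_eq_true_eq, List.all_eq_true] at hB
    obtain ⟨⟨⟨⟨⟨⟨ha24, hb24, hc24, hab, hac, -, -, -⟩, -⟩, hAB⟩, hAC⟩, -⟩, -⟩ := hB
    obtain ⟨y, hy, z, hz, e⟩ := exists_comm hf hK hd hb
    have hk : ∀ (j : Fin 24), d.1 ≠ j → (∀ x ∈ oR d.1, ∀ w ∈ oR j, commB x w = true) →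
        ∀ w, σ w ∈ Xo K p f j → Commute a w := by
      intro j hne hC
      obtain ⟨t, ht, hfix, hfree⟩ := hkill ⟨d.1, ha24⟩ j fun e => hne (congrArg Fin.val e)
      exact commute_of_kill hs hc (fun w hw => hnorm t ht j w hw) hfree (hfix _ ha)
        fun w hw => commute_Xo (i := ⟨d.1, ha24⟩) hC ha hw
    obtain ⟨y', rfl⟩ := hs y
    obtain ⟨z', rfl⟩ := hs z
    have h1 := hk ⟨_, hb24⟩ hab hAB y' hy
    have h2 := hk ⟨_, hc24⟩ hac hAC z' hz
    obtain ⟨k, hk0, rfl⟩ : ∃ k ∈ σ.ker, b = ⁅y', z'⁆ * k :=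
      ⟨⁅y', z'⁆⁻¹ * b, by rw [MonoidHom.mem_ker, map_mul, map_inv, map_commutatorElement, e, inv_mul_cancel],
        by group⟩
    rw [commutatorElement_def]
    exact (((h1.mul_right h2).mul_right h1.inv_right).mul_right h2.inv_right).mul_right
      (Subgroup.mem_center_iff.1 (hc hk0) a)
  intro a b ha hb
  rcases decE6_cover i with ⟨d, hd, hdi⟩ | ⟨m, hm, hmi, d, hd, hdm⟩
  · exact hdec d hd a b (by rw [hdi]; exact ha) (by rw [hdi]; exact hb)
  obtain ⟨hk4, -, -, hperm⟩ := movE6_ok m hm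
  set T := twGrpE6 (K := K) hf hK
  set k : Fin 4 := ⟨m.2.1, hk4⟩
  obtain ⟨-, η, hA⟩ := acts_slN fullE6 (frq K p f) (T.ortho k)
  obtain ⟨n, hn⟩ := hs (slN (T.X k) (T.Y k) 1)
  have hmove : ∀ w, σ w ∈ Xo K p f i → σ (n * w * n⁻¹) ∈ Xo K p f d.1 := by
    intro w hw
    show ((σ (n * w * n⁻¹) : ↥𝔾) : GL chevE6.Idx K) ∈ rootsU chevE6 K {x | x ∈ oR d.1}
    rw [map_mul, map_mul, map_inv, hn, Subgroup.coe_mul, Subgroup.coe_mul, Subgroup.coe_inv, coe_slN]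
    refine hA.conj_rootsU (fun r hr => ?_) _ hw
    show _ ∈ oR d.1
    rw [hdm]
    exact hperm r (by rw [hmi]; exact hr)
  have := hdec d hd _ _ (hmove a ha) (hmove b hb)
  have h2 := this.map (MulAut.conj n⁻¹).toMonoidHom
  simpa [mul_assoc] using h2

/-- No stem extension of ²E₆(q), `q ≠ 2`, has a kernel of order divisible by `p`. -/
theorem not_dvd_ker (hf : 1 ≤ f) (hK : Fintype.card K = (p ^ f) ^ 2) (hq2 : p ^ f ≠ 2) {Γ : Type u} [Group Γ]
    [Finite Γ] (σ : Γ →* ↥𝔾) (hσ : Cfsg.IsStemExtension σ) : ¬ p ∣ Nat.card σ.ker := by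
  obtain ⟨hfree, hkill⟩ := exists_kills (K := K) hf hK hq2
  obtain ⟨L, hL1, hL2⟩ := exists_section_of_kills hσ.1 hσ.2.1 (fun i : Fin 24 => Xo K p f i) (Tset K p f)
    (fun t ht i => hnorm t ht i) hcommT hfree (hfilt hf hK) hdis hkill (lifts_commute hf hK hq2 σ hσ.1 hσ.2.1)
  refine not_dvd_card_ker_of_local hσ (Fact.out : p.Prime) (TwGrp.PU 𝔾)
    (twGrpE6 (K := K) hf hK).not_dvd_index fun z hz hzk => ?_
  have hU : TwGrp.PU 𝔾 ≤ L.map σ := fun g hg => by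
    refine hL2 (mem_tailX hf hK 24 0 (by omega) g ?_)
    rw [List.drop_zero]
    exact rootsU_mono (T := {s | s ∈ orbRoots oE6}) (S := {s | chevE6.IsPosRoot s})
      (fun s hs => (oE6_pos ⟨s, hs.1⟩).1 hs) hg
  have hle : (TwGrp.PU 𝔾).comap σ ≤ L ⊔ σ.ker := by
    refine (Subgroup.comap_mono hU).trans ?_
    rw [Subgroup.comap_map_eq]
  refine hL1 z ?_ hzk
  refine (Subgroup.commutator_le.2 fun x hx y hy => ?_) (Subgroup.commutator_mono hle hle hz)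
  have hsplit : ∀ g ∈ L ⊔ σ.ker, ∃ a ∈ L, σ g = σ a := by
    intro g hg
    have : g ∈ (L.map σ).comap σ := by rw [Subgroup.comap_map_eq]; exact hg
    obtain ⟨a, ha, e⟩ := this
    exact ⟨a, ha, e.symm⟩
  obtain ⟨a, ha, ea⟩ := hsplit x hx
  obtain ⟨b, hb, eb⟩ := hsplit y hy
  rw [comm_eq_of_map_eq hσ.2.1 ea eb, commutatorElement_def]
  exact mul_mem (mul_mem (mul_mem ha hb) (inv_mem ha)) (inv_mem hb)

end CfsgLib.TwMult.E6
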