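import Cfsg.Agent.Lib.SchurMult.CentralComm
import Mathlib.GroupTheory.Commutator.Basic
import Mathlib.Algebra.Group.Subgroup.Pointwise

/-!
A central extension splits over a group filtered by abelian subgroups `X i` normalised by a commuting set `T`, when
every `T`-invariant pairing between two of them vanishes: the lifts `[t, X i]` generate a complement.
-/

set_option autoImplicit false

namespace CfsgLib.TwMult

open CfsgLib.SchurMult
open scoped commutatorElement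

universe u v

variable {Γ : Type u} {G : Type v} [Group Γ] [Group G] {σ : Γ →* G}

theorem conj_fix_comm {g x : G} (e : g * x * g⁻¹ = x) : Commute g x := mul_inv_eq_iff_eq_mul.1 e

/-- An element fixed by `t` commutes with the lifts of a finite group on which `t` has no fixed point. -/
theorem commute_of_kill [Finite Γ] (hs : Function.Surjective σ) (hc : σ.ker ≤ Subgroup.center Γ) {B : Subgroup G}
    {t : G} (hB : ∀ y ∈ B, t * y * t⁻¹ ∈ B) (hfree : ∀ y ∈ B, t * y * t⁻¹ = y → y = 1) {a : Γ}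
    (hfix : t * σ a * t⁻¹ = σ a) (hcomm : ∀ y ∈ B, Commute (σ a) y) :
    ∀ b, σ b ∈ B → Commute a b := by
  haveI : Finite G := Finite.of_surjective σ hs
  obtain ⟨th, rfl⟩ := hs t
  have hta : ⁅th, a⁆ ∈ σ.ker := comm_mem_ker (conj_fix_comm hfix)
  intro b hb
  -- `b` is a commutator with `th`, up to the kernel
  let f : B → B := fun y => ⟨σ th * y * (σ th)⁻¹ * (y : G)⁻¹, mul_mem (hB _ y.2) (inv_mem y.2)⟩
  have hf : Function.Injective f := by
    intro y y' e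
    have e' : σ th * (y : G) * (σ th)⁻¹ * (y : G)⁻¹ = σ th * (y' : G) * (σ th)⁻¹ * (y' : G)⁻¹ :=
      congrArg Subtype.val e
    have h1 : σ th * ((y' : G)⁻¹ * y) * (σ th)⁻¹ = (y' : G)⁻¹ * y := by
      calc σ th * ((y' : G)⁻¹ * y) * (σ th)⁻¹
          = (σ th * (y' : G) * (σ th)⁻¹)⁻¹ * (σ th * (y : G) * (σ th)⁻¹ * (y : G)⁻¹) * y := by group
        _ = _ := by rw [e']; group
    exact Subtype.ext (inv_mul_eq_one.1 (hfree _ (mul_mem (inv_mem y'.2) y.2) h1)).symm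
  obtain ⟨⟨y, hy⟩, e⟩ := Finite.injective_iff_surjective.1 hf ⟨σ b, hb⟩
  obtain ⟨c, rfl⟩ := hs y
  have e' : σ ⁅th, c⁆ = σ b := by
    rw [map_commutatorElement, commutatorElement_def]
    exact congrArg Subtype.val e
  have h1 : ⁅a, b⁆ = ⁅a, ⁅th, c⁆⁆ := comm_eq_of_map_eq hc rfl e'.symm
  have h2 : ∀ g : Γ, σ g ∈ B → ⁅a, g⁆ ∈ σ.ker := fun g hg => comm_mem_ker (hcomm _ hg)
  have hcB : σ (th * c * th⁻¹) ∈ B := by rw [map_mul, map_mul, map_inv]; exact hB _ hy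
  have h3 : ⁅a, th * c * th⁻¹⁆ = ⁅a, c⁆ := by
    calc ⁅a, th * c * th⁻¹⁆ = ⁅th * a * th⁻¹, th * c * th⁻¹⁆ := comm_eq_of_map_eq hc (by
          rw [map_mul, map_mul, map_inv, hfix]) rfl
      _ = th * ⁅a, c⁆ * th⁻¹ := (conjugate_commutatorElement a c th).symm
      _ = ⁅a, c⁆ := by rw [ker_comm hc (h2 c hy), mul_inv_cancel_right]
  have h4 : ⁅a, ⁅th, c⁆⁆ = 1 := by
    rw [commutatorElement_def th c, comm_mul_right hc
      (show Commute (σ a) (σ c⁻¹) by rw [map_inv]; exact (hcomm _ hy).inv_right), h3,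
      ← comm_mul_right hc (show Commute (σ a) (σ c⁻¹) by rw [map_inv]; exact (hcomm _ hy).inv_right),
      mul_inv_cancel, commutatorElement_one_right]
  exact commutatorElement_eq_one_iff_commute.1 (h1.trans h4)

/-- The subgroups `X k`, `m ≤ k`. -/
def tailX {n : ℕ} (X : Fin n → Subgroup G) (m : ℕ) : Subgroup G :=
  Subgroup.closure {g | ∃ k : Fin n, m ≤ (k : ℕ) ∧ g ∈ X k}

theorem tailX_anti {n : ℕ} (X : Fin n → Subgroup G) {m m' : ℕ} (h : m ≤ m') : tailX X m' ≤ tailX X m :=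
  Subgroup.closure_mono fun _ ⟨k, hk, hg⟩ => ⟨k, h.trans hk, hg⟩

theorem exists_section_of_kills [Finite Γ] (hs : Function.Surjective σ) (hc : σ.ker ≤ Subgroup.center Γ)
    {n : ℕ} (X : Fin n → Subgroup G) (T : Set G)
    (hnorm : ∀ t ∈ T, ∀ i, ∀ x ∈ X i, t * x * t⁻¹ ∈ X i)
    (hT : ∀ t ∈ T, ∀ t' ∈ T, Commute t t')
    (hfree : ∀ i, ∃ t ∈ T, ∀ x ∈ X i, t * x * t⁻¹ = x → x = 1)
    (hfilt : ∀ i j, ∀ x ∈ X i, ∀ y ∈ X j, ⁅x, y⁆ ∈ tailX X (max (i : ℕ) (j : ℕ) + 1))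
    (hdis : ∀ i : Fin n, ∀ x ∈ X i, x ∈ tailX X ((i : ℕ) + 1) → x = 1)
    (hkill : ∀ i j, i ≠ j → ∃ t ∈ T, (∀ x ∈ X i, t * x * t⁻¹ = x) ∧ ∀ y ∈ X j, t * y * t⁻¹ = y → y = 1)
    (hab : ∀ i, ∀ a b, σ a ∈ X i → σ b ∈ X i → Commute a b) :
    ∃ L : Subgroup Γ, (∀ z ∈ L, σ z = 1 → z = 1) ∧ tailX X 0 ≤ L.map σ := by
  classical
  haveI : Finite G := Finite.of_surjective σ hs
  choose t0 ht0 hfree0 using hfree
  choose th0 hth0 using fun i => hs (t0 i)
  have hC : ∀ i {g}, σ g ∈ X i → σ (th0 i * g * (th0 i)⁻¹ * g⁻¹) ∈ X i := fun i g hg => by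
    rw [map_mul, map_mul, map_mul, map_inv, map_inv, hth0]
    exact mul_mem (hnorm _ (ht0 i) i _ hg) (inv_mem hg)
  let f : ∀ i, (X i).comap σ →* Γ := fun i => MonoidHom.mk' (fun a => ⁅th0 i, (a : Γ)⁆) fun a b => by
    show ⁅th0 i, (a : Γ) * b⁆ = ⁅th0 i, (a : Γ)⁆ * ⁅th0 i, (b : Γ)⁆
    have h1 : Commute (a : Γ) ⁅th0 i, (b : Γ)⁆ := hab i _ _ a.2 (hC i b.2)
    calc ⁅th0 i, (a : Γ) * b⁆ = ⁅th0 i, (a : Γ)⁆ * ((a : Γ) * ⁅th0 i, (b : Γ)⁆ * (a : Γ)⁻¹) := by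
          simp only [commutatorElement_def]; group
      _ = _ := by rw [h1.eq, mul_inv_cancel_right]
  let Y : Fin n → Subgroup Γ := fun i => (f i).range
  have hYX : ∀ i, ∀ y ∈ Y i, σ y ∈ X i := by
    rintro i _ ⟨a, rfl⟩
    exact hC i a.2
  have hYker : ∀ i, ∀ y ∈ Y i, σ y = 1 → y = 1 := by
    rintro i _ ⟨a, rfl⟩ e
    have h1 : σ (a : Γ) = 1 := hfree0 i _ a.2 (by
      have e1 : σ (⁅th0 i, (a : Γ)⁆) = 1 := e
      rw [map_commutatorElement, hth0, commutatorElement_eq_one_iff_commute] at e1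
      rw [e1.eq, mul_inv_cancel_right])
    exact commutatorElement_eq_one_iff_commute.2 (Subgroup.mem_center_iff.1 (hc h1) (th0 i))
  have hsurj : ∀ i, ∀ x ∈ X i, ∃ y ∈ Y i, σ y = x := by
    intro i
    let g : X i → X i := fun x => ⟨t0 i * x * (t0 i)⁻¹ * (x : G)⁻¹, mul_mem (hnorm _ (ht0 i) i _ x.2) (inv_mem x.2)⟩
    have hg : Function.Injective g := by
      intro y y' e
      have e' : t0 i * (y : G) * (t0 i)⁻¹ * (y : G)⁻¹ = t0 i * (y' : G) * (t0 i)⁻¹ * (y' : G)⁻¹ :=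
        congrArg Subtype.val e
      have h1 : t0 i * ((y' : G)⁻¹ * y) * (t0 i)⁻¹ = (y' : G)⁻¹ * y := by
        calc t0 i * ((y' : G)⁻¹ * y) * (t0 i)⁻¹
            = (t0 i * (y' : G) * (t0 i)⁻¹)⁻¹ * (t0 i * (y : G) * (t0 i)⁻¹ * (y : G)⁻¹) * y := by group
          _ = _ := by rw [e']; group
      exact Subtype.ext (inv_mul_eq_one.1 (hfree0 i _ (mul_mem (inv_mem y'.2) y.2) h1)).symm
    intro x hx
    obtain ⟨⟨w, hw⟩, e⟩ := Finite.injective_iff_surjective.1 hg ⟨x, hx⟩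
    obtain ⟨a, rfl⟩ := hs w
    refine ⟨f i ⟨a, hw⟩, ⟨_, rfl⟩, ?_⟩
    show σ ⁅th0 i, a⁆ = x
    rw [map_commutatorElement, hth0, commutatorElement_def]
    exact congrArg Subtype.val e
  have hTY : ∀ t ∈ T, ∀ th, σ th = t → ∀ i, ∀ y ∈ Y i, th * y * th⁻¹ ∈ Y i := by
    rintro t ht th rfl i _ ⟨a, rfl⟩
    refine ⟨⟨th * a * th⁻¹, show σ (th * a * th⁻¹) ∈ X i by
      rw [map_mul, map_mul, map_inv]; exact hnorm _ ht i _ a.2⟩, ?_⟩
    show ⁅th0 i, th * (a : Γ) * th⁻¹⁆ = th * ⁅th0 i, (a : Γ)⁆ * th⁻¹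
    rw [conjugate_commutatorElement]
    refine comm_eq_of_map_eq hc ?_ rfl
    rw [map_mul, map_mul, map_inv, hth0, (hT _ ht _ (ht0 i)).eq, mul_inv_cancel_right]
  let S : ℕ → Set Γ := fun m => {g | ∃ k : Fin n, m ≤ (k : ℕ) ∧ g ∈ Y k}
  let L : ℕ → Subgroup Γ := fun m => Subgroup.closure (S m)
  have hPL : ∀ m, tailX X m ≤ (L m).map σ := fun m => by
    refine (Subgroup.closure_le _).2 ?_
    rintro x ⟨k, hk, hx⟩
    obtain ⟨y, hy, rfl⟩ := hsurj k x hx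
    exact ⟨y, Subgroup.subset_closure ⟨k, hk, hy⟩, rfl⟩
  have hLP : ∀ m, ∀ l ∈ L m, σ l ∈ tailX X m := fun m l hl => by
    have : L m ≤ (tailX X m).comap σ := (Subgroup.closure_le _).2 fun y ⟨k, hk, hy⟩ =>
      Subgroup.subset_closure ⟨k, hk, hYX k y hy⟩
    exact this hl
  have hTL : ∀ t ∈ T, ∀ th, σ th = t → ∀ m, ∀ l ∈ L m, th * l * th⁻¹ ∈ L m := fun t ht th e m l hl => by
    have : L m ≤ (L m).comap (MulAut.conj th).toMonoidHom := (Subgroup.closure_le _).2 fun y ⟨k, hk, hy⟩ =>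
      Subgroup.subset_closure ⟨k, hk, hTY t ht th e k y hy⟩
    exact this hl
  suffices key : ∀ d, ∀ m, n ≤ m + d → (∀ z ∈ L m, σ z = 1 → z = 1) ∧
      ∀ j, ∀ y ∈ Y j, ∀ l ∈ L m, y * l * y⁻¹ ∈ L m from
    ⟨L 0, (key n 0 (by omega)).1, hPL 0⟩
  intro d
  induction d with
  | zero =>
    intro m hm
    have hL : L m = ⊥ := by
      rw [eq_bot_iff, Subgroup.closure_le]
      rintro g ⟨k, hk, -⟩
      have := k.isLt
      omega
    rw [hL]
    exact ⟨fun z hz _ => Subgroup.mem_bot.1 hz, fun j y _ l hl => by simp [Subgroup.mem_bot.1 hl]⟩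
  | succ d ih =>
    intro m hm
    rcases Nat.lt_or_ge m n with hmn | hmn
    swap
    · exact ih m (by omega)
    obtain ⟨hA, hB⟩ := ih (m + 1) (by omega)
    set i : Fin n := ⟨m, hmn⟩
    -- the commutator of a lift with `Y i` lies in the smaller complement
    have hcom : ∀ j, ∀ y' ∈ Y j, ∀ y ∈ Y i, ⁅y', y⁆ ∈ L (m + 1) := by
      intro j y' hy' y hy
      rcases eq_or_ne j i with rfl | hji
      · rw [commutatorElement_eq_one_iff_commute.2 (hab _ _ _ (hYX _ _ hy') (hYX _ _ hy))]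
        exact one_mem _
      obtain ⟨t, ht, hfixj, hfreei⟩ := hkill j i hji
      obtain ⟨th, rfl⟩ := hs t
      have hdec : ∀ w ∈ Y i, ∃ l ∈ L (m + 1), ∃ z ∈ σ.ker, ⁅y', w⁆ = l * z := fun w hw => by
        have h1 : σ ⁅y', w⁆ ∈ tailX X (m + 1) := by
          rw [map_commutatorElement]
          exact tailX_anti X (by simp [i]) (hfilt j i _ (hYX _ _ hy') _ (hYX _ _ hw))
        obtain ⟨l, hl, e⟩ := hPL _ h1
        exact ⟨l, hl, l⁻¹ * ⁅y', w⁆, by rw [MonoidHom.mem_ker, map_mul, map_inv, e, inv_mul_cancel], by group⟩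
      choose lw hlw zw hzw ew using hdec
      have huniq : ∀ {l l' z z' : Γ}, l ∈ L (m + 1) → l' ∈ L (m + 1) → z ∈ σ.ker → z' ∈ σ.ker →
          l * z = l' * z' → z = z' := by
        intro l l' z z' hl hl' hz hz' e
        have h1 : l'⁻¹ * l = z' * z⁻¹ := by
          rw [inv_mul_eq_iff_eq_mul, ← mul_assoc, eq_mul_inv_iff_mul_eq]; exact e
        have h2 := hA _ (mul_mem (inv_mem hl') hl) (by rw [h1]; exact mul_mem hz' (inv_mem hz))
        rw [h1, mul_inv_eq_one] at h2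
        exact h2.symm
      let ζ : Y i →* σ.ker := MonoidHom.mk' (fun w => ⟨zw w w.2, hzw w w.2⟩) fun a b => Subtype.ext (by
        show zw _ (a * b).2 = zw _ a.2 * zw _ b.2
        refine huniq (hlw _ (a * b).2) (mul_mem (hlw _ a.2) (hB i _ a.2 _ (hlw _ b.2))) (hzw _ (a * b).2)
          (mul_mem (hzw _ a.2) (hzw _ b.2)) ?_
        rw [← ew]
        show ⁅y', (a : Γ) * b⁆ = _
        calc ⁅y', (a : Γ) * b⁆ = ⁅y', (a : Γ)⁆ * ((a : Γ) * ⁅y', (b : Γ)⁆ * (a : Γ)⁻¹) := by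
              simp only [commutatorElement_def]; group
          _ = lw _ a.2 * zw _ a.2 * ((a : Γ) * lw _ b.2 * zw _ b.2 * (a : Γ)⁻¹) := by
              rw [ew _ a.2, ew _ b.2]; group
          _ = lw _ a.2 * zw _ a.2 * ((a : Γ) * lw _ b.2 * ((a : Γ)⁻¹ * zw _ b.2)) := by
              rw [ker_comm hc (hzw _ b.2) (a : Γ)⁻¹]; group
          _ = lw _ a.2 * (zw _ a.2 * ((a : Γ) * lw _ b.2 * (a : Γ)⁻¹)) * zw _ b.2 := by group
          _ = _ := by rw [← ker_comm hc (hzw _ a.2)]; group)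
      have hty' : th * y' * th⁻¹ = y' := by
        have h1 := hTY _ ht th rfl j y' hy'
        refine (inv_mul_eq_one.1 (hYker j _ (mul_mem (inv_mem h1) hy') ?_))
        rw [map_mul, map_inv, map_mul, map_mul, map_inv, hfixj _ (hYX _ _ hy'), inv_mul_cancel]
      have hinv : ∀ w : Y i, ζ ⟨th * w * th⁻¹, hTY _ ht th rfl i _ w.2⟩ = ζ w := fun w => Subtype.ext (by
        refine huniq (hlw _ (hTY _ ht th rfl i _ w.2)) (hTL _ ht th rfl _ _ (hlw _ w.2)) (hzw _ (hTY _ ht th rfl i _ w.2))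
          (hzw _ w.2) ?_
        refine (ew _ (hTY _ ht th rfl i _ w.2)).symm.trans ?_
        show ⁅y', th * (w : Γ) * th⁻¹⁆ = _
        calc ⁅y', th * (w : Γ) * th⁻¹⁆ = ⁅th * y' * th⁻¹, th * (w : Γ) * th⁻¹⁆ := by rw [hty']
          _ = th * (lw _ w.2 * zw _ w.2) * th⁻¹ := by rw [← conjugate_commutatorElement, ew _ w.2]
          _ = th * lw _ w.2 * (th⁻¹ * zw _ w.2) := by rw [ker_comm hc (hzw _ w.2) th⁻¹]; group
          _ = th * lw _ w.2 * th⁻¹ * zw _ w.2 := by group)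
      let g : Y i → Y i := fun w => ⟨th * w * th⁻¹, hTY _ ht th rfl i _ w.2⟩ * w⁻¹
      have hg : Function.Injective g := by
        intro w w' e
        have e' : th * (w : Γ) * th⁻¹ * (w : Γ)⁻¹ = th * (w' : Γ) * th⁻¹ * (w' : Γ)⁻¹ := congrArg Subtype.val e
        have h1 : th * ((w' : Γ)⁻¹ * w) * th⁻¹ = (w' : Γ)⁻¹ * w := by
          calc th * ((w' : Γ)⁻¹ * w) * th⁻¹
              = (th * (w' : Γ) * th⁻¹)⁻¹ * (th * (w : Γ) * th⁻¹ * (w : Γ)⁻¹) * w := by group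
            _ = _ := by rw [e']; group
        have h2 : σ ((w' : Γ)⁻¹ * w) = 1 := hfreei _ (hYX _ _ (mul_mem (inv_mem w'.2) w.2)) (by
          rw [← map_inv σ th, ← map_mul, ← map_mul, h1])
        exact Subtype.ext (inv_mul_eq_one.1 (hYker i _ (mul_mem (inv_mem w'.2) w.2) h2)).symm
      obtain ⟨w, hw⟩ := Finite.injective_iff_surjective.1 hg ⟨y, hy⟩
      have hζ : ζ ⟨y, hy⟩ = 1 := by
        rw [← hw]
        show ζ (_ * w⁻¹) = 1
        rw [map_mul, hinv, map_inv, mul_inv_cancel]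
      rw [ew y hy, show zw y hy = 1 from congrArg Subtype.val hζ, mul_one]
      exact hlw y hy
    have hsplit : ∀ z ∈ L m, ∃ l ∈ L (m + 1), ∃ y ∈ Y i, z = l * y := by
      intro z hz
      induction hz using Subgroup.closure_induction with
      | mem g hg =>
        obtain ⟨k, hk, hg⟩ := hg
        rcases hk.eq_or_lt with hk | hk
        · obtain rfl : k = i := Fin.ext hk.symm
          exact ⟨1, one_mem _, g, hg, (one_mul g).symm⟩
        · exact ⟨g, Subgroup.subset_closure ⟨k, hk, hg⟩, 1, one_mem _, (mul_one g).symm⟩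
      | one => exact ⟨1, one_mem _, 1, one_mem _, (mul_one 1).symm⟩
      | mul a b _ _ ha hb =>
        obtain ⟨l, hl, y, hy, rfl⟩ := ha
        obtain ⟨l', hl', y', hy', rfl⟩ := hb
        exact ⟨l * (y * l' * y⁻¹), mul_mem hl (hB i y hy l' hl'), y * y', mul_mem hy hy', by group⟩
      | inv a _ ha =>
        obtain ⟨l, hl, y, hy, rfl⟩ := ha
        exact ⟨y⁻¹ * l⁻¹ * y⁻¹⁻¹, hB i y⁻¹ (inv_mem hy) _ (inv_mem hl), y⁻¹, inv_mem hy, by group⟩
    refine ⟨fun z hz hz1 => ?_, fun j y' hy' l hl => ?_⟩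
    · obtain ⟨l, hl, y, hy, rfl⟩ := hsplit z hz
      rw [map_mul] at hz1
      have h1 : σ y = 1 := hdis i _ (hYX i y hy) (by
        rw [eq_inv_of_mul_eq_one_right hz1]; exact inv_mem (hLP _ _ hl))
      obtain rfl := hYker i y hy h1
      rw [map_one, mul_one] at hz1
      rw [mul_one]
      exact hA l hl hz1
    · obtain ⟨l', hl', y, hy, rfl⟩ := hsplit l hl
      have hmono : L (m + 1) ≤ L m :=
        Subgroup.closure_mono fun g ⟨k, hk, hg⟩ => ⟨k, Nat.le_of_succ_le hk, hg⟩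
      rw [show y' * (l' * y) * y'⁻¹ = y' * l' * y'⁻¹ * (⁅y', y⁆ * y) by
        simp only [commutatorElement_def]; group]
      exact mul_mem (hmono (hB j y' hy' l' hl'))
        (mul_mem (hmono (hcom j y' hy' y hy)) (Subgroup.subset_closure ⟨i, le_rfl, hy⟩))

end CfsgLib.TwMult
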