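import Cfsg.Agent.Lib.TwMult.E6Data
import Cfsg.Agent.Lib.TwMult.UKill
import Cfsg.Agent.Lib.Twisted.TwistedBN
import Cfsg.Agent.Lib.ChevMult.Base

/-!
The root orbits inside the unipotent part of ²E₆: their coordinates, their commutators, and the torus elements
separating them.
-/

set_option autoImplicit false
set_option maxRecDepth 100000
set_option linter.unusedSectionVars false
set_option linter.unusedSimpArgs false
set_option linter.style.haveILetI false

namespace CfsgLib.TwMult.E6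

open Cfsg.Lie CfsgLib.Chevalley CfsgLib.InvCentralizers.AutChev CfsgLib.InvCentralizers.AutTwisted
open CfsgLib.Twisted (Orb orbRoots checkOrd checkOrd_cons graphSigmaE6 graphEtaE6 graphEtaE6_sign graphTwist
  fullE6 stdE6 IsTwist e6Twist_isTwist mem_orbRoots_cons)
open scoped commutatorElement

variable {K : Type*} [Field K] [Fintype K] {p f : ℕ} [Fact p.Prime] [CharP K p]

local notation "𝔾" => twistedE6 K (p ^ f)

theorem pow_facts (hf : 1 ≤ f) (hK : Fintype.card K = (p ^ f) ^ 2) :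
    IsPrimePow (p ^ f) ∧ (-1 : K) ^ (p ^ f) = -1 ∧ ∀ t : K, (t ^ p ^ f) ^ p ^ f = t := by
  have hq : IsPrimePow (p ^ f) := ⟨p, f, (Fact.out : p.Prime).prime, by omega, rfl⟩
  exact ⟨hq, CfsgLib.Twisted.neg_one_pow_primePow hq two_ne_zero hK, fun t => by
    rw [← pow_mul, ← sq, ← hK, FiniteField.pow_card]⟩

/-- The twist, whose fixed points in `U` lie in the group. -/
theorem exists_twist (hf : 1 ≤ f) (hK : Fintype.card K = (p ^ f) ^ 2) :
    ∃ τ : ↥(chevE6.group K) →* GL chevE6.Idx K,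
      (∀ (g : ↥(chevE6.group K)) (r : ℕ) (t : K), r < chevE6.nroots →
        (g : GL chevE6.Idx K) = xG fullE6.cert r t →
          τ g = xG fullE6.cert (graphSigmaE6 r) (graphTwist graphEtaE6 (p ^ f) r t)) ∧
      ∀ g : ↥(chevE6.group K), (g : GL chevE6.Idx K) ∈ chevE6.posUnipotent K → τ g = g →
        (g : GL chevE6.Idx K) ∈ 𝔾 := by
  obtain ⟨hq, -, -⟩ := pow_facts hf hK
  have hT := e6Twist_isTwist hq hK
  obtain ⟨τ, hτ, hfix⟩ := hT.exists_map
  refine ⟨τ, hτ, fun g hgU hg => ?_⟩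
  let H : Subgroup (GL chevE6.Idx K) := (τ.eqLocus (chevE6.group K).subtype).map (chevE6.group K).subtype
  have hH : IsTwist fullE6.cert graphSigmaE6 (graphTwist graphEtaE6 (p ^ f)) H := by
    refine ⟨?_, hT.zero, τ, hτ, ?_⟩
    · rintro _ ⟨z, -, rfl⟩; exact z.2
    · rintro z ⟨z', hz', e⟩
      rw [← Subtype.ext e]
      exact hz'
  have hle : 𝔾 ≤ H := fun x hx => ⟨⟨x, hT.le hx⟩, hfix ⟨x, hT.le hx⟩ hx, rfl⟩
  exact CfsgLib.Twisted.full_of_card hle ((CfsgLib.Twisted.card_unipotentE6_of_le hq hK hH hle).trans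
    (CfsgLib.Twisted.card_unipotentE6 hq hK).symm) ⟨⟨g, hg, rfl⟩, hgU⟩

theorem oR_pos {i : Fin 24} {r : ℕ} (hr : r ∈ oR i) : chevE6.IsPosRoot r := by
  have hlt := (graph_orb i r hr).2.2.1
  refine (oE6_pos ⟨r, hlt⟩).2 (List.mem_flatMap.2 ⟨oE6.getD i (0, []), ?_, hr⟩)
  rw [List.getD_eq_getElem _ _ (show (i : ℕ) < oE6.length from i.isLt)]
  exact List.getElem_mem _

/-- The twisted root element with coordinate `t` at `r`. -/
noncomputable def el (p f : ℕ) (r : ℕ) (t : K) : GL chevE6.Idx K :=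
  if graphSigmaE6 r = r then xG fullE6.cert r t
  else xG fullE6.cert r t * xG fullE6.cert (graphSigmaE6 r) (graphTwist graphEtaE6 (p ^ f) r t)

/-- The fixed points of a root orbit. -/
noncomputable def Xo (K : Type*) [Field K] (p f : ℕ) (i : ℕ) : Subgroup ↥(twistedE6 K (p ^ f)) :=
  (rootsU chevE6 K {r | r ∈ oR i}).subgroupOf _

theorem commute_of_commB {r r' : ℕ} (h : commB r r' = true) (hr : r < chevE6.nroots) (hr' : r' < chevE6.nroots)
    (t u : K) : Commute (xG fullE6.cert r t) (xG fullE6.cert r' u) := by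
  simp only [commB, Bool.and_eq_true, Bool.not_eq_true', List.isEmpty_iff] at h
  exact congrArg Subtype.val (CfsgLib.ChevMult.xg_commute fullE6.toStd hr hr'
    (fun e => by rw [e] at h; simp at h) (Or.inr h.1.2) t u).eq

theorem el_mem_rootsU {i : Fin 24} {r : ℕ} (hr : r ∈ oR i) (t : K) :
    el p f r t ∈ rootsU chevE6 K {s | s ∈ oR i} := by
  unfold el
  split
  · exact xG_mem_rootsU fullE6.cert (show r ∈ {s | s ∈ oR i} from hr) t
  · exact mul_mem (xG_mem_rootsU fullE6.cert (show r ∈ {s | s ∈ oR i} from hr) t)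
      (xG_mem_rootsU fullE6.cert (show graphSigmaE6 r ∈ {s | s ∈ oR i} from (graph_orb i r hr).1) _)

theorem el_mem (hf : 1 ≤ f) (hK : Fintype.card K = (p ^ f) ^ 2) {i : Fin 24} {r : ℕ} (hr : r ∈ oR i) {t : K}
    (ht : graphSigmaE6 r = r → t ^ p ^ f = t) : el p f r t ∈ 𝔾 := by
  obtain ⟨τ, hτ, hfull⟩ := exists_twist (K := K) hf hK
  obtain ⟨-, hm, hq2⟩ := pow_facts hf hK
  obtain ⟨h1, h2, hlt, hη, hη1, hc⟩ := graph_orb i r hr
  have hU : el p f r t ∈ chevE6.posUnipotent K :=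
    rootsU_mono (T := {s | chevE6.IsPosRoot s}) (fun s hs => oR_pos hs) (el_mem_rootsU (p := p) (f := f) hr t)
  have hG : ∀ s (u : K), xG fullE6.cert s u ∈ chevE6.group K := xG_mem_group fullE6.cert
  by_cases hs : graphSigmaE6 r = r
  · rw [el, if_pos hs] at hU ⊢
    refine hfull ⟨_, hG r t⟩ hU ?_
    rw [hτ _ r t hlt rfl, hs, graphTwist, hη1 hs, ht hs, Int.cast_one, one_mul]
  · rw [el, if_neg hs] at hU ⊢
    have hlt' := (graph_orb i _ h1).2.2.1
    refine hfull (⟨_, hG r t⟩ * ⟨_, hG (graphSigmaE6 r) (graphTwist graphEtaE6 (p ^ f) r t)⟩) hU ?_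
    rw [map_mul, hτ _ r t hlt rfl, hτ _ _ _ hlt' rfl, h2]
    have e : graphTwist graphEtaE6 (p ^ f) (graphSigmaE6 r) (graphTwist graphEtaE6 (p ^ f) r t) = t := by
      simp only [graphTwist, hη, mul_pow, hq2]
      rcases graphEtaE6_sign r with e | e <;> rw [e]
      · simp
      · rw [Int.cast_neg, Int.cast_one, hm]; ring
    rw [e]
    exact ((commute_of_commB (hc hs) hlt hlt' _ _).eq).symm

/-- A fixed element of an orbit is determined by its coordinate at any of its roots. -/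
theorem eq_el (hf : 1 ≤ f) (hK : Fintype.card K = (p ^ f) ^ 2) {i : Fin 24} {v : GL chevE6.Idx K}
    (hv : v ∈ rootsU chevE6 K {s | s ∈ oR i}) (hvG : v ∈ 𝔾) {r : ℕ} (hr : r ∈ oR i) :
    ∃ a : ℕ → K, v = prodU fullE6.cert (oR i) a ∧ v = el p f r (a r) ∧
      (graphSigmaE6 r = r → a r ^ p ^ f = a r) := by
  obtain ⟨hq, -, -⟩ := pow_facts hf hK
  have ho := oE6_single i
  have hv' : v ∈ rootsU chevE6 K {s | s ∈ orbRoots [oE6.getD i (0, [])]} :=
    rootsU_mono (fun s hs => mem_orbRoots_cons.2 (Or.inl hs)) hv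
  obtain ⟨a, w, hw, e⟩ := CfsgLib.Twisted.exists_decomp fullE6.toStd _ [] ho hv'
  have hw1 : w = 1 := by
    have : rootsU chevE6 K {s | s ∈ orbRoots ([] : List Orb)} ≤ (⊥ : Subgroup (GL chevE6.Idx K)) :=
      (rootsU_le_iff fullE6.cert).2 fun s hs t => absurd hs (by simp [orbRoots])
    exact Subgroup.mem_bot.1 (this hw)
  subst hw1
  have hrel := CfsgLib.Twisted.coord_rel fullE6.toStd (e6Twist_isTwist hq hK) _ [] ho hvG (one_mem _) e
  rw [one_mul] at e
  have hshape : ∀ i : Fin 24, ∀ r ∈ oR i, oR i = (if graphSigmaE6 r = r then [r] else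
      if r < graphSigmaE6 r then [r, graphSigmaE6 r] else [graphSigmaE6 r, r]) := by decide +kernel
  refine ⟨a, e, ?_, fun hs => ?_⟩
  · obtain ⟨h1, h2, hlt, hη, hη1, hc⟩ := graph_orb i r hr
    rw [e, show (oE6.getD i (0, [])).2 = oR i from rfl, hshape i r hr, el]
    by_cases hs : graphSigmaE6 r = r
    · simp [hs, prodU]
    · rw [if_neg hs, if_neg hs]
      have hrel' := hrel r hr
      split
      · simp [prodU, hrel']
      · simp only [prodU, List.map_cons, List.map_nil, List.prod_cons, List.prod_nil, mul_one, hrel']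
        exact ((commute_of_commB (hc hs) hlt (graph_orb i _ h1).2.2.1 _ _).eq).symm
  · have := hrel r hr
    rw [hs, graphTwist, (graph_orb i r hr).2.2.2.2.1 hs, Int.cast_one, one_mul] at this
    exact this.symm

/-! ### The filtration -/

theorem checkOrd_drop : ∀ m, checkOrd chevE6 graphSigmaE6 (oE6.drop m) = true := by
  intro m
  induction m with
  | zero => exact oE6_ord
  | succ m ih =>
    rw [← List.drop_drop (i := 1) (j := m)]
    cases hd : oE6.drop m with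
    | nil => rfl
    | cons o O =>
      rw [hd] at ih
      exact (checkOrd_cons ih).2.2.2.2.2

theorem drop_eq {m : ℕ} (hm : m < 24) : oE6.drop m = oE6.getD m (0, []) :: oE6.drop (m + 1) := by
  rw [List.getD_eq_getElem _ _ (show m < oE6.length from hm)]
  exact List.drop_eq_getElem_cons _

theorem mem_tailX (hf : 1 ≤ f) (hK : Fintype.card K = (p ^ f) ^ 2) : ∀ d m, 24 ≤ m + d → ∀ v : ↥𝔾,
    (v : GL chevE6.Idx K) ∈ rootsU chevE6 K {s | s ∈ orbRoots (oE6.drop m)} →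
      v ∈ tailX (fun i : Fin 24 => Xo K p f i) m := by
  intro d
  induction d with
  | zero =>
    intro m hm v hv
    have : rootsU chevE6 K {s | s ∈ orbRoots (oE6.drop m)} ≤ (⊥ : Subgroup (GL chevE6.Idx K)) :=
      (rootsU_le_iff fullE6.cert).2 fun s hs t => by
        rw [List.drop_eq_nil_of_le (show oE6.length ≤ m from by simpa [oE6] using hm)] at hs
        exact absurd hs (by simp [orbRoots])
    rw [show v = 1 from Subtype.ext (Subgroup.mem_bot.1 (this hv))]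
    exact one_mem _
  | succ d ih =>
    intro m hm v hv
    rcases Nat.lt_or_ge m 24 with hm' | hm'
    swap
    · exact ih m (by omega) v hv
    have hd := drop_eq hm'
    have ho : checkOrd chevE6 graphSigmaE6 (oE6.getD m (0, []) :: oE6.drop (m + 1)) = true :=
      hd ▸ checkOrd_drop m
    rw [hd] at hv
    obtain ⟨hq, -, -⟩ := pow_facts hf hK
    obtain ⟨a, w, hw, e⟩ := CfsgLib.Twisted.exists_decomp fullE6.toStd _ _ ho hv
    have hrel := CfsgLib.Twisted.coord_rel fullE6.toStd (e6Twist_isTwist hq hK) _ _ ho v.2 hw e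
    have hmem : prodU fullE6.cert (oR m) a ∈ 𝔾 := by
      have hhead : ∀ m : Fin 24, ∃ r ∈ oR m, oR m = (if graphSigmaE6 r = r then [r] else
          [r, graphSigmaE6 r]) := by decide +kernel
      obtain ⟨r, hr, hl⟩ := hhead ⟨m, hm'⟩
      have hr' : r ∈ oR m := hr
      rw [show oR m = _ from hl]
      have hx := el_mem (K := K) hf hK (i := ⟨m, hm'⟩) hr (t := a r) fun hs => by
        have := hrel r hr'
        rw [hs, graphTwist, (graph_orb ⟨m, hm'⟩ r hr).2.2.2.2.1 hs, Int.cast_one, one_mul] at this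
        exact this.symm
      convert hx using 1
      unfold el
      split <;> simp [prodU, hrel r hr']
    let b : ↥𝔾 := ⟨_, hmem⟩
    have hw' : v * b⁻¹ ∈ tailX (fun i : Fin 24 => Xo K p f i) (m + 1) := by
      refine ih (m + 1) (by omega) _ ?_
      rw [Subgroup.coe_mul, Subgroup.coe_inv, e, show (oE6.getD m (0, [])).2 = oR m from rfl,
        mul_inv_cancel_right]
      exact hw
    rw [← inv_mul_cancel_right v b]
    exact mul_mem (tailX_anti _ (Nat.le_succ m) hw') (Subgroup.subset_closure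
      ⟨⟨m, hm'⟩, le_rfl, prodU_mem (L := oR m) fullE6.cert a⟩)

theorem tailX_le (m : ℕ) :
    tailX (fun i : Fin 24 => Xo K p f i) m ≤
      (rootsU chevE6 K {s | s ∈ orbRoots (oE6.drop m)}).subgroupOf _ := by
  refine (Subgroup.closure_le _).2 ?_
  rintro v ⟨k, hk, hv⟩
  refine rootsU_mono (fun s hs => List.mem_flatMap.2 ⟨oE6.getD k (0, []), ?_, hs⟩) hv
  rw [List.getD_eq_getElem _ _ (show (k : ℕ) < oE6.length from k.isLt), List.mem_iff_getElem]
  refine ⟨(k : ℕ) - m, by simp [oE6]; omega, ?_⟩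
  simp [show m + ((k : ℕ) - m) = k by omega]

theorem comm_rootsU {D : ChevalleyDatum} {A : Aux} {F : Type*} [Field F] (hS : Std D A) {R₁ R₂ N : Set ℕ}
    (h₁ : ∀ r ∈ R₁, D.IsPosRoot r) (h₂ : ∀ r ∈ R₂, D.IsPosRoot r) (hN : ∀ r ∈ N, D.IsPosRoot r)
    (hc : ∀ r ∈ R₁, ∀ s ∈ R₂, s ≠ r → ∀ c ∈ D.commTerms r s, c.1 ∈ N)
    (hn : ∀ r, r ∈ R₁ ∨ r ∈ R₂ → ∀ s ∈ N, s ≠ r → ∀ c ∈ D.commTerms r s, c.1 ∈ N) {g g' : GL D.Idx F}
    (hg : g ∈ rootsU D F R₁) (hg' : g' ∈ rootsU D F R₂) : ⁅g, g'⁆ ∈ rootsU D F N := by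
  have norm : ∀ r, r ∈ R₁ ∨ r ∈ R₂ → ∀ t : F, ∀ v ∈ rootsU D F N,
      xG hS.cert r t * v * (xG hS.cert r t)⁻¹ ∈ rootsU D F N := by
    intro r hr t
    refine rootsU_conj_le hS.cert fun s hs u => ?_
    have hrp : D.IsPosRoot r := hr.elim (h₁ r) (h₂ r)
    by_cases hne : s = r
    · subst hne
      rw [xG_mul, xG_inv, xG_mul, show t + u + -t = u by ring]
      exact xG_mem_rootsU hS.cert hs u
    obtain ⟨W, hW, e⟩ := conj_xG hS hrp.1 (hN s hs).1 hne (hS.ne_neg hrp (hN s hs)) (T := N) (hn r hr s hs hne) t u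
    rw [e]
    exact mul_mem (xG_mem_rootsU hS.cert hs u) hW
  have norm' : ∀ x, x ∈ rootsU D F R₁ ∨ x ∈ rootsU D F R₂ → ∀ v ∈ rootsU D F N, x * v * x⁻¹ ∈ rootsU D F N := by
    have : ∀ R : Set ℕ, (∀ r ∈ R, r ∈ R₁ ∨ r ∈ R₂) → ∀ x ∈ rootsU D F R, ∀ v ∈ rootsU D F N,
        x * v * x⁻¹ ∈ rootsU D F N := by
      intro R hR x hx
      induction hx using rootsU_induction hS.cert with
      | h1 => simp
      | hx r hr t => exact norm r (hR r hr) t
      | hmul a b _ _ ha hb =>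
        intro v hv
        have := ha _ (hb v hv)
        rwa [show a * (b * v * b⁻¹) * a⁻¹ = a * b * v * (a * b)⁻¹ by group] at this
    exact fun x hx => hx.elim (this R₁ (fun r hr => Or.inl hr) x) (this R₂ (fun r hr => Or.inr hr) x)
  induction hg using rootsU_induction hS.cert with
  | h1 => simp
  | hx r hr t =>
    induction hg' using rootsU_induction hS.cert with
    | h1 => simp
    | hx s hs u =>
      by_cases hne : s = r
      · subst hne
        rw [commutatorElement_def, xG_mul, xG_inv, xG_mul, xG_inv, xG_mul,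
          show t + u + -t + -u = 0 by ring, xG_zero]
        exact one_mem _
      obtain ⟨W, hW, e⟩ := conj_xG hS (h₁ r hr).1 (h₂ s hs).1 hne (hS.ne_neg (h₁ r hr) (h₂ s hs)) (T := N)
        (hc r hr s hs hne) t u
      rw [commutatorElement_def, e]
      exact norm' _ (Or.inr (xG_mem_rootsU hS.cert hs u)) _ hW
    | hmul a b ha _ iha ihb =>
      rw [show ⁅xG hS.cert r t, a * b⁆ = ⁅xG hS.cert r t, a⁆ * (a * ⁅xG hS.cert r t, b⁆ * a⁻¹) by
        simp only [commutatorElement_def]; group]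
      exact mul_mem iha (norm' a (Or.inr ha) _ ihb)
  | hmul a b ha _ iha ihb =>
    rw [show ⁅a * b, g'⁆ = a * ⁅b, g'⁆ * a⁻¹ * ⁅a, g'⁆ by simp only [commutatorElement_def]; group]
    exact mul_mem (norm' a (Or.inl ha) _ ihb) iha

theorem exists_orbit {m s : ℕ} (hs : s ∈ orbRoots (oE6.drop m)) :
    ∃ k : Fin 24, m ≤ (k : ℕ) ∧ s ∈ oR k := by
  obtain ⟨o, ho, hso⟩ := List.mem_flatMap.1 hs
  obtain ⟨j, hj, rfl⟩ := List.mem_iff_getElem.1 ho
  have hlt : m + j < 24 := by simp [oE6] at hj; omega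
  refine ⟨⟨m + j, hlt⟩, by simp, ?_⟩
  show s ∈ (oE6.getD (m + j) (0, [])).2
  rw [List.getD_eq_getElem _ _ (show m + j < oE6.length from hlt)]
  simpa [List.getElem_drop] using hso

theorem hfilt (hf : 1 ≤ f) (hK : Fintype.card K = (p ^ f) ^ 2) (i j : Fin 24) :
    ∀ x ∈ Xo K p f i, ∀ y ∈ Xo K p f j,
      ⁅x, y⁆ ∈ tailX (fun i : Fin 24 => Xo K p f i) (max (i : ℕ) (j : ℕ) + 1) := by
  intro x hx y hy
  refine mem_tailX hf hK 24 _ (by omega) _ ?_
  rw [show ((⁅x, y⁆ : ↥𝔾) : GL chevE6.Idx K) = ⁅(x : GL chevE6.Idx K), (y : GL chevE6.Idx K)⁆ from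
    map_commutatorElement (Subgroup.subtype _) x y]
  refine comm_rootsU fullE6.toStd (R₁ := {r | r ∈ oR i}) (R₂ := {r | r ∈ oR j})
    (N := {s | s ∈ orbRoots (oE6.drop (max (i : ℕ) (j : ℕ) + 1))})
    (fun r hr => oR_pos hr) (fun r hr => oR_pos hr) (fun r hr => ?_)
    (fun r hr s hs => oE6_filt i j r hr s hs) (fun r hr s hs hne c hcc => ?_)
    hx hy
  · obtain ⟨k, -, hk⟩ := exists_orbit hr
    exact oR_pos hk
  · obtain ⟨k, hk, hsk⟩ := exists_orbit hs
    have hsub : ∀ {l : ℕ}, max (i : ℕ) (j : ℕ) + 1 ≤ l → ∀ {x : ℕ}, x ∈ orbRoots (oE6.drop l) →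
        x ∈ orbRoots (oE6.drop (max (i : ℕ) (j : ℕ) + 1)) := by
      intro l hl x hx
      obtain ⟨o, ho, hxo⟩ := List.mem_flatMap.1 hx
      exact List.mem_flatMap.2 ⟨o, (List.drop_sublist_drop_left oE6 hl).subset ho, hxo⟩
    rcases hr with hr | hr
    · exact hsub (by omega) (oE6_filt i k r hr s hsk hne c hcc)
    · exact hsub (by omega) (oE6_filt j k r hr s hsk hne c hcc)

theorem hdis (i : Fin 24) : ∀ x ∈ Xo K p f i, x ∈ tailX (fun i : Fin 24 => Xo K p f i) ((i : ℕ) + 1) → x = 1 := by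
  intro x hx ht
  have h1 : (x : GL chevE6.Idx K) ∈ rootsU chevE6 K {s | s ∈ orbRoots (oE6.drop ((i : ℕ) + 1))} := tailX_le _ ht
  have ho : checkOrd chevE6 graphSigmaE6 (oE6.getD i (0, []) :: oE6.drop ((i : ℕ) + 1)) = true :=
    drop_eq i.isLt ▸ checkOrd_drop i
  have hv' : (x : GL chevE6.Idx K) ∈ rootsU chevE6 K {s | s ∈ orbRoots [oE6.getD i (0, [])]} :=
    rootsU_mono (fun s hs => mem_orbRoots_cons.2 (Or.inl hs)) hx
  obtain ⟨a, w, hw, e⟩ := CfsgLib.Twisted.exists_decomp fullE6.toStd _ [] (oE6_single i) hv'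
  have hw1 : w = 1 := by
    have : rootsU chevE6 K {s | s ∈ orbRoots ([] : List Orb)} ≤ (⊥ : Subgroup (GL chevE6.Idx K)) :=
      (rootsU_le_iff fullE6.cert).2 fun s hs t => absurd hs (by simp [orbRoots])
    exact Subgroup.mem_bot.1 (this hw)
  subst hw1
  rw [one_mul] at e
  rw [e] at h1
  have h0 := CfsgLib.Twisted.eq_zero_of_prodU_mem fullE6.toStd _ _ ho h1
  refine Subtype.ext ?_
  rw [e, CfsgLib.Twisted.prodU_zero fullE6.cert _ a h0]
  rfl

/-! ### Torus elements -/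

/-- The elements of the group lying in the torus. -/
def Tset (K : Type*) [Field K] (p f : ℕ) : Set ↥(twistedE6 K (p ^ f)) :=
  {t | ∃ c : Fin chevE6.rank → Kˣ, (t : GL chevE6.Idx K) = torusHom chevE6 K c}

theorem hnorm : ∀ t ∈ Tset K p f, ∀ i : Fin 24, ∀ x ∈ Xo K p f i, t * x * t⁻¹ ∈ Xo K p f i := by
  rintro t ⟨c, hc⟩ i x hx
  show ((t * x * t⁻¹ : ↥𝔾) : GL chevE6.Idx K) ∈ rootsU chevE6 K _
  rw [Subgroup.coe_mul, Subgroup.coe_mul, Subgroup.coe_inv, hc]
  exact (acts_torus fullE6.cert c).conj_rootsU (fun s hs => hs) _ hx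

theorem hcommT : ∀ t ∈ Tset K p f, ∀ t' ∈ Tset K p f, Commute t t' := by
  rintro t ⟨c, hc⟩ t' ⟨c', hc'⟩
  refine Subtype.ext ?_
  show (t : GL chevE6.Idx K) * t' = t' * t
  rw [hc, hc', ← map_mul, ← map_mul, mul_comm]

theorem fix_of_chi {c : Fin chevE6.rank → Kˣ} {i : Fin 24} (h : ∀ r ∈ oR i, chi chevE6 r c = 1)
    {v : GL chevE6.Idx K} (hv : v ∈ rootsU chevE6 K {s | s ∈ oR i}) :
    torusHom chevE6 K c * v * (torusHom chevE6 K c)⁻¹ = v := by
  induction hv using rootsU_induction fullE6.cert with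
  | h1 => simp
  | hx r hr t =>
    have := (acts_torus fullE6.cert c).conj ⟨r, (graph_orb i r hr).2.2.1⟩ t
    simpa [h r hr] using this
  | hmul a b _ _ ha hb =>
    conv_rhs => rw [← ha, ← hb]
    group

theorem free_of_chi {c : Fin chevE6.rank → Kˣ} {i : Fin 24} (h : ∀ r ∈ oR i, chi chevE6 r c ≠ 1)
    {v : GL chevE6.Idx K} (hv : v ∈ rootsU chevE6 K {s | s ∈ oR i})
    (e : torusHom chevE6 K c * v * (torusHom chevE6 K c)⁻¹ = v) : v = 1 := by
  have hv' : v ∈ rootsU chevE6 K {s | s ∈ orbRoots [oE6.getD i (0, [])]} :=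
    rootsU_mono (fun s hs => mem_orbRoots_cons.2 (Or.inl hs)) hv
  obtain ⟨a, w, hw, e1⟩ := CfsgLib.Twisted.exists_decomp fullE6.toStd _ [] (oE6_single i) hv'
  have hw1 : w = 1 := by
    have : rootsU chevE6 K {s | s ∈ orbRoots ([] : List Orb)} ≤ (⊥ : Subgroup (GL chevE6.Idx K)) :=
      (rootsU_le_iff fullE6.cert).2 fun s hs t => absurd hs (by simp [orbRoots])
    exact Subgroup.mem_bot.1 (this hw)
  subst hw1
  rw [one_mul, show (oE6.getD i (0, [])).2 = oR i from rfl] at e1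
  have hL : ∀ L : List ℕ, (∀ r ∈ L, r < chevE6.nroots) →
      torusHom chevE6 K c * prodU fullE6.cert L a * (torusHom chevE6 K c)⁻¹ =
        prodU fullE6.cert L fun r => (chi chevE6 r c : K) * a r := by
    intro L
    induction L with
    | nil => intro _; simp [prodU]
    | cons k L ih =>
      intro hk
      have e2 := (acts_torus fullE6.cert c).conj ⟨k, hk k (by simp)⟩ (a k)
      rw [prodU_cons, prodU_cons, ← ih fun r hr => hk r (List.mem_cons_of_mem _ hr)]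
      simp only [Equiv.Perm.coe_one, id_eq] at e2
      rw [← e2]
      group
  have e3 := hL (oR i) fun r hr => (graph_orb i r hr).2.2.1
  rw [← e1, e, e1] at e3
  have h0 := CfsgLib.Twisted.decomp_unique fullE6.toStd _ [] (oE6_single i)
    (a := a) (b := fun r => (chi chevE6 r c : K) * a r) (v := (1 : GL chevE6.Idx K)) (w := 1)
    (one_mem _) (one_mem _) (by rw [one_mul, one_mul]; exact e3)
  rw [e1]
  refine CfsgLib.Twisted.prodU_zero fullE6.cert _ a fun r hr => ?_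
  have h2 := h0 r hr
  by_contra hne
  exact h r hr (Units.ext (mul_right_cancel₀ hne ((one_mul _).trans h2).symm))

/-- The torus element with the exponents `v` of `g` on the four orbits. -/
theorem exists_tor (hf : 1 ≤ f) (hK : Fintype.card K = (p ^ f) ^ 2) (g : Kˣ) (e : ℤ)
    (hg : ((g : K)) ^ p ^ f = ((g ^ e : Kˣ) : K)) (v : ℤ × ℤ × ℤ × ℤ)
    (ha : g ^ (e * v.1) = g ^ v.1) (hb : g ^ (e * v.2.1) = g ^ v.2.1) :
    ∃ t ∈ Tset K p f, ∃ c : Fin chevE6.rank → Kˣ, (t : GL chevE6.Idx K) = torusHom chevE6 K c ∧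
      ∀ r, chi chevE6 r c = g ^ pair6 e v r := by
  set T := twGrpE6 (K := K) hf hK
  set fru := Units.map ((frq K p f) : K →* K) with hfru
  have hfg : ∀ k : ℤ, fru (g ^ k) = g ^ (e * k) := fun k => by
    rw [map_zpow, zpow_mul]
    congr 1
    exact Units.ext (by show frq K p f (g : K) = _; rw [frq_apply]; exact hg)
  have hfix : ∀ k : ℤ, g ^ (e * k) = g ^ k → ((g ^ k : Kˣ) : K) ∈ fixF (frq K p f) := fun k hk => by
    rw [mem_fixF]
    exact congrArg Units.val ((hfg k).trans hk)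
  let u0 : fldE6 K p f 0 := ⟨((g ^ v.1 : Kˣ) : K), hfix _ ha⟩
  let u1 : fldE6 K p f 1 := ⟨((g ^ v.2.1 : Kˣ) : K), hfix _ hb⟩
  let u2 : fldE6 K p f 2 := ⟨((g ^ v.2.2.1 : Kˣ) : K), trivial⟩
  let u3 : fldE6 K p f 3 := ⟨((g ^ v.2.2.2 : Kˣ) : K), trivial⟩
  set c : Fin chevE6.rank → Kˣ := hv (frq K p f) (orbE6 0) (g ^ v.1) * hv (frq K p f) (orbE6 1) (g ^ v.2.1) *
    hv (frq K p f) (orbE6 2) (g ^ v.2.2.1) * hv (frq K p f) (orbE6 3) (g ^ v.2.2.2)
  let t : ↥𝔾 := slH (T.X 0) (T.Y 0) u0 * slH (T.X 1) (T.Y 1) u1 * slH (T.X 2) (T.Y 2) u2 * slH (T.X 3) (T.Y 3) u3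
  have ht : (t : GL chevE6.Idx K) = torusHom chevE6 K c := by
    simp only [t, Subgroup.coe_mul, coe_slH, c, map_mul]
    rw [← slH_mem_diagonal fullE6 (frq K p f) (e6Ortho 0) (g ^ v.1),
      ← slH_mem_diagonal fullE6 (frq K p f) (e6Ortho 1) (g ^ v.2.1),
      ← slH_mem_diagonal fullE6 (frq K p f) (e6Ortho 2) (g ^ v.2.2.1),
      ← slH_mem_diagonal fullE6 (frq K p f) (e6Ortho 3) (g ^ v.2.2.2)]
  refine ⟨t, ⟨c, ht⟩, c, ht, fun r => ?_⟩
  have hk : ∀ k : Fin 6, c k = g ^ (mu6 e v).getD k 0 := by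
    have key : ∀ k : Fin 6, (Pi.mulSingle (1 : Fin 6) (g ^ v.1) * 1 * (Pi.mulSingle (3 : Fin 6) (g ^ v.2.1) * 1) *
        (Pi.mulSingle (0 : Fin 6) (g ^ v.2.2.1) * (Pi.mulSingle (5 : Fin 6) (fru (g ^ v.2.2.1)) * 1)) *
        (Pi.mulSingle (2 : Fin 6) (g ^ v.2.2.2) * (Pi.mulSingle (4 : Fin 6) (fru (g ^ v.2.2.2)) * 1)) :
          Fin 6 → Kˣ) k = g ^ (mu6 e v).getD k 0 := by
      intro k
      fin_cases k <;> simp [mu6, hfg]
    exact fun k => key k
  show ∏ k : Fin 6, c k ^ chevE6.cartan k r = _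
  rw [Fin.prod_univ_six]
  simp only [hk, ← zpow_mul, ← zpow_add]
  rfl

theorem exists_kills (hf : 1 ≤ f) (hK : Fintype.card K = (p ^ f) ^ 2) (hq2 : p ^ f ≠ 2) :
    (∀ i : Fin 24, ∃ t ∈ Tset K p f, ∀ x ∈ Xo K p f i, t * x * t⁻¹ = x → x = 1) ∧
      ∀ i j : Fin 24, i ≠ j → ∃ t ∈ Tset K p f, (∀ x ∈ Xo K p f i, t * x * t⁻¹ = x) ∧
        ∀ y ∈ Xo K p f j, t * y * t⁻¹ = y → y = 1 := by
  classical
  obtain ⟨hq, -, -⟩ := pow_facts hf hK
  have h2 : 2 ≤ p ^ f := hq.two_le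
  have hfix' : ∀ (t : ↥𝔾) c, (t : GL chevE6.Idx K) = torusHom chevE6 K c → ∀ i : Fin 24,
      (∀ r ∈ oR i, chi chevE6 r c = 1) → ∀ x ∈ Xo K p f i, t * x * t⁻¹ = x := fun t c hc i h x hx => by
    refine Subtype.ext ?_
    rw [Subgroup.coe_mul, Subgroup.coe_mul, Subgroup.coe_inv, hc]
    exact fix_of_chi h hx
  have hfree' : ∀ (t : ↥𝔾) c, (t : GL chevE6.Idx K) = torusHom chevE6 K c → ∀ i : Fin 24,
      (∀ r ∈ oR i, chi chevE6 r c ≠ 1) → ∀ x ∈ Xo K p f i, t * x * t⁻¹ = x → x = 1 := fun t c hc i h x hx e => by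
    refine Subtype.ext (free_of_chi h hx ?_)
    have := congrArg Subtype.val e
    rwa [Subgroup.coe_mul, Subgroup.coe_mul, Subgroup.coe_inv, hc] at this
  obtain ⟨ω, hω⟩ := IsCyclic.exists_ofOrder_eq_natCard (α := Kˣ)
  rw [Nat.card_units, Nat.card_eq_fintype_card, hK] at hω
  rcases Nat.lt_or_ge (p ^ f) 4 with h4 | h4
  · have h3 : p ^ f = 3 := by omega
    rw [h3] at hω
    have hω8 : ∀ k : ℤ, ω ^ k = 1 ↔ k % 8 = 0 := fun k => by
      rw [← orderOf_dvd_iff_zpow_eq_one, hω]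
      norm_num
    have hg : (ω : K) ^ p ^ f = ((ω ^ (3 : ℤ) : Kˣ) : K) := by
      rw [h3, show (3 : ℤ) = ((3 : ℕ) : ℤ) from rfl, zpow_natCast, Units.val_pow_eq_pow_val]
    have heven : ∀ k : ℤ, 2 * k % 8 = 0 → ω ^ (3 * k) = ω ^ k := fun k hk => by
      rw [show 3 * k = 2 * k + k by ring, zpow_add, (hω8 _).2 hk, one_mul]
    refine ⟨fun i => ?_, fun i j hij => ?_⟩
    · obtain ⟨v, hv, h⟩ := cocThree_free i
      obtain ⟨t, ht, c, hc, hchi⟩ := exists_tor hf hK ω 3 hg v (heven _ (cocThree_even v hv).1)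
        (heven _ (cocThree_even v hv).2)
      exact ⟨t, ht, hfree' t c hc i fun r hr => by rw [hchi, ne_eq, hω8]; exact h r hr⟩
    · obtain ⟨v, hv, hi, hj⟩ := cocThree_kill i j hij
      obtain ⟨t, ht, c, hc, hchi⟩ := exists_tor hf hK ω 3 hg v (heven _ (cocThree_even v hv).1)
        (heven _ (cocThree_even v hv).2)
      exact ⟨t, ht, hfix' t c hc i (fun r hr => by rw [hchi, hω8]; exact hi r hr),
        hfree' t c hc j fun r hr => by rw [hchi, ne_eq, hω8]; exact hj r hr⟩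
  · set q := p ^ f
    have hq1 : ∀ n : ℕ, (n + 1) ^ 2 - 1 = (n + 1 + 1) * n := fun n => Nat.sub_eq_of_eq_add (by ring)
    replace hq1 : q ^ 2 - 1 = (q + 1) * (q - 1) := by
      have := hq1 (q - 1)
      rwa [Nat.sub_add_cancel (by omega : 1 ≤ q)] at this
    set g := ω ^ (q + 1)
    have hord : orderOf g = q - 1 := by
      rw [orderOf_pow_of_dvd (by omega) (by rw [hω, hq1]; exact dvd_mul_right _ _), hω, hq1,
        Nat.mul_div_cancel_left _ (by omega)]
    have hgq : g ^ q = g := by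
      calc g ^ q = g ^ (q - 1 + 1) := by rw [Nat.sub_add_cancel (by omega)]
        _ = g := by rw [pow_succ, ← hord, pow_orderOf_eq_one, one_mul]
    have hg : (g : K) ^ q = ((g ^ (1 : ℤ) : Kˣ) : K) := by
      rw [zpow_one, ← Units.val_pow_eq_pow_val, hgq]
    have hne : ∀ k : ℤ, k ≠ 0 → k.natAbs ≤ 2 → g ^ k ≠ 1 := fun k h0 hk e => by
      have h1 := orderOf_dvd_iff_zpow_eq_one.2 e
      rw [hord, ← Int.dvd_natAbs, Int.natCast_dvd_natCast] at h1
      have := Nat.le_of_dvd (by omega) h1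
      omega
    refine ⟨fun i => ?_, fun i j hij => ?_⟩
    · obtain ⟨v, -, h⟩ := cocGen_free i
      obtain ⟨t, ht, c, hc, hchi⟩ := exists_tor hf hK g 1 hg v (by rw [one_mul]) (by rw [one_mul])
      exact ⟨t, ht, hfree' t c hc i fun r hr => by rw [hchi]; exact hne _ (h r hr).1 (h r hr).2⟩
    · obtain ⟨v, -, hi, hj⟩ := cocGen_kill i j hij
      obtain ⟨t, ht, c, hc, hchi⟩ := exists_tor hf hK g 1 hg v (by rw [one_mul]) (by rw [one_mul])
      exact ⟨t, ht, hfix' t c hc i (fun r hr => by rw [hchi, hi r hr, zpow_zero]),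
        hfree' t c hc j fun r hr => by rw [hchi]; exact hne _ (hj r hr).1 (hj r hr).2⟩

end CfsgLib.TwMult.E6
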