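import Cfsg.Agent.Lib.TwMult.RankTwo

/-!
In a central extension prime to the characteristic of a twisted group of any rank, a product of lifted Weyl elements
fixing every root is a lifted torus element: a lifted fundamental reflection is carried to the next one by every
element carrying its orbit there, so the exchange argument shortens every such product.
-/

set_option autoImplicit false
set_option linter.unusedSectionVars false
set_option linter.style.haveILetI false

namespace CfsgLib.TwMult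

open Cfsg.Lie CfsgLib.Chevalley CfsgLib.InvCentralizers.AutChev CfsgLib.InvCentralizers.AutTwisted
open scoped MatrixGroups

universe u

theorem slD_one {K : Type*} [Field K] : slD (1 : Kˣ) = 1 :=
  Subtype.ext (by simp [slD, Matrix.one_fin_two])

/-- `slD` as a homomorphism. -/
def slDHom (K : Type*) [Field K] : Kˣ →* SL(2, K) :=
  { toFun := slD, map_one' := slD_one, map_mul' := fun a b => (slD_mul a b).symm }

/-- A rank-one pair carried to another one carries the Weyl lift to the Weyl lift. -/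
theorem Copy.conj_slW_map {K K' : Type*} [Field K] [Field K'] {Γ G : Type*} [Group Γ] [Group G]
    {σ : Γ →* G} {p : ℕ} {l : G → Γ} {x y : K → G} {φ : SL(2, K) →* Γ} (C : Copy σ l x y φ) {x' y' : K' → G}
    {φ' : SL(2, K') →* Γ} (C' : Copy σ l x' y' φ') (P : PLift σ p l)
    (hp : ∀ t, IsPElem p (x t) ∧ IsPElem p (y t)) (S : SLFaith x y) (S' : SLFaith x' y') (g : Γ)
    (hX : ∀ t, ∃ s, σ g * x t * (σ g)⁻¹ = x' s) (hX' : ∀ s, ∃ t, σ g * x t * (σ g)⁻¹ = x' s)
    (hY : ∀ t, ∃ s, σ g * y t * (σ g)⁻¹ = y' s) :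
    ∃ c : K'ˣ, g * φ slW * g⁻¹ = φ' (slD c) * φ' slW := by
  choose f hf using hX
  choose f' hf' using hY
  have hinj : Function.Injective f := fun a b e => by
    have := (hf a).trans ((congrArg x' e).trans (hf b).symm)
    exact S.xinj (mul_left_cancel (mul_right_cancel this))
  obtain ⟨s, hs'⟩ := hX' 1
  have hs : f s = 1 := S'.xinj ((hf s).symm.trans hs')
  have h0 : f 0 = 0 := by
    have := hf 0
    rw [S.rel.x_zero, mul_one, mul_inv_cancel, ← S'.rel.x_zero] at this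
    exact (S'.xinj this).symm
  have ha : f 1 ≠ 0 := fun h => one_ne_zero (hinj (h.trans h0.symm))
  have hb : f' (-1) = -(f 1)⁻¹ := by
    refine S'.eq_inv_of_conj (z := f' (-s)) ha ?_
    have e := congrArg (fun m => σ g * m * (σ g)⁻¹) (S.rel.conjx 1 s one_ne_zero)
    simp only [slN, inv_one, one_mul] at e
    have e3 : x' (f 1) * y' (f' (-1)) * x' (f 1) * x' (f s) * (x' (f 1) * y' (f' (-1)) * x' (f 1))⁻¹ =
        y' (f' (-s)) := by
      rw [← hf 1, ← hf' (-1), ← hf s, ← hf' (-s), ← e]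
      group
    rwa [hs] at e3
  refine ⟨Units.mk0 _ ha, ?_⟩
  rw [← map_mul φ' (slD (Units.mk0 _ ha)), ← slN_mat ha,
    show φ slW = φ (slN (slX (F := K)) slY 1) by
      rw [slN_mat one_ne_zero, Units.mk0_one, slD_one, one_mul]]
  simp only [slN, map_mul, C.hx, C.hy, C'.hx, C'.hy, inv_one]
  rw [show g * (l (x 1) * l (y (-1)) * l (x 1)) * g⁻¹ =
    g * l (x 1) * g⁻¹ * (g * l (y (-1)) * g⁻¹) * (g * l (x 1) * g⁻¹) by group,
    P.conj (hp 1).1, P.conj (hp (-1)).2, hf, hf', hb]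

variable {D : ChevalleyDatum} {A : Aux} {F : Type*} [Field F]
variable {h : Full D A} {fr : F →+* F} {m : ℕ} {O : Fin m → List (Fin D.rank)}
  {L : Fin m → Subfield F} {G : Subgroup (GL D.Idx F)} (T : TwGrp h fr O L G)
variable {Γ : Type u} [Group Γ]

theorem ty_mem_negOrb (h : Full D A) (fr : F →+* F) (k : Fin m) (t : F) :
    ty h.cert fr (O k) t ∈ rootsU D F (negOrb D (O k)) := by
  have : ∀ (Ol : List (Fin D.rank)), (∀ i ∈ Ol, i ∈ O k) → ∀ x : F,
      ty h.cert fr Ol x ∈ rootsU D F (negOrb D (O k)) := by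
    intro Ol
    induction Ol with
    | nil => exact fun _ _ => one_mem _
    | cons i Ol ih =>
      exact fun hl x => mul_mem (xG_mem_rootsU h.cert
        (show D.neg (D.simple i) ∈ negOrb D (O k) from ⟨i, hl i (by simp), rfl⟩) x)
        (ih (fun j hj => hl j (List.mem_cons_of_mem i hj)) _)
  exact this _ (fun _ hi => hi) _

/-- The permutation of a word in the orbits. -/
def wordPerm (hC : Cert D A) (O : Fin m → List (Fin D.rank)) (l : List (Fin m)) : Equiv.Perm (Fin D.nroots) :=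
  (l.map fun k => orbPerm hC (O k)).prod

theorem exists_torus_of_nlift [Finite F] {p : ℕ} [Fact p.Prime] [CharP F p] [Finite Γ] {σ : Γ →* ↥G}
    {l : ↥G → Γ} (P : PLift σ p l) (φ : ∀ k, SL(2, L k) →* Γ) (C : ∀ k, Copy σ l (T.X k) (T.Y k) (φ k))
    (hkeep : ∀ k, ∀ r : Fin D.nroots, D.IsPosRoot r → (r : ℕ) ∉ posOrb D (O k) →
      D.IsPosRoot (orbPerm h.cert (O k) r))
    (hneg : ∀ k, ∀ i ∈ O k, ((orbPerm h.cert (O k) (smp h.cert i) : Fin D.nroots) : ℕ) ∈ negOrb D (O k)) :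
    ∃ Ψ : (∀ k, (L k)ˣ) →* Γ, (∀ k a, Ψ (Pi.mulSingle k a) = φ k (slD a)) ∧
      ∀ w ∈ Nlift φ, σ w = 1 → ∃ c, Ψ c = w := by
  classical
  obtain ⟨ρ, ψ, hG, hJ, -⟩ := T.fixed
  haveI : ∀ k, Finite (L k) := fun k => Finite.of_injective _ Subtype.val_injective
  have hp : ∀ k t, IsPElem p (T.X k t) ∧ IsPElem p (T.Y k t) := fun k t => isPElem_XY T k t
  -- a torus element scales the root subgroups
  have hscale : ∀ k' k (a : (L k')ˣ), ∃ c : L k, c ≠ 0 ∧
      (∀ t, σ (φ k' (slD a)) * T.X k t * (σ (φ k' (slD a)))⁻¹ = T.X k (c * t)) ∧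
      ∀ t, σ (φ k' (slD a)) * T.Y k t * (σ (φ k' (slD a)))⁻¹ = T.Y k (c⁻¹ * t) := by
    intro k' k a
    set g := σ (φ k' (slD a))
    have hg : (g : GL D.Idx F) = torusHom D F (hv fr (O k') (Units.map (L k').subtype.toMonoidHom a)) := by
      rw [show g = slH (T.X k') (T.Y k') (a : L k') from (C k').map_slD a, coe_slH]
      exact slH_mem_diagonal h fr (T.ortho k') (Units.map (L k').subtype.toMonoidHom a)
    obtain ⟨c, hc⟩ := T.chiShape _ (hg ▸ g.2) k
    have hX : ∀ t, g * T.X k t * g⁻¹ = T.X k (c * t) := fun t => Subtype.ext (by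
      have := scale_tx h.cert fr (g := (g : GL D.Idx F)) (O := O k)
        (fun i _ t => by rw [hg]; exact torusHom_simple h _ i t) hc (t : F)
      simpa [TwGrp.X] using this)
    have hY : ∀ t, g * T.Y k t * g⁻¹ = T.Y k (c⁻¹ * t) := fun t => Subtype.ext (by
      have := scale_ty h.cert fr (g := (g : GL D.Idx F)) (O := O k)
        (fun i _ t => by rw [hg]; exact torusHom_negSimple h _ i t) hc (t : F)
      simpa [TwGrp.Y] using this)
    refine ⟨c, fun h0 => ?_, hX, hY⟩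
    have := hX 1
    rw [h0, zero_mul, (T.faith k).rel.x_zero, conj_eq_one_iff] at this
    exact T.X_one_ne k this
  have hcomm : ∀ k' k (a : (L k')ˣ) (b : (L k)ˣ), Commute (φ k' (slD a)) (φ k (slD b)) := by
    intro k' k a b
    obtain ⟨c, hc, hX, hY⟩ := hscale k' k a
    exact mul_inv_eq_iff_eq_mul.1 ((C k).conj_slD P (hp k) _ hc hX hY b)
  let Ψ : (∀ k, (L k)ˣ) →* Γ := MonoidHom.noncommPiCoprod (fun k => (φ k).comp (slDHom (L k)))
    fun i j _ a b => hcomm i j a b
  have hΨ : ∀ k a, Ψ (Pi.mulSingle k a) = φ k (slD a) := fun k a =>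
    MonoidHom.noncommPiCoprod_mulSingle _ _ _
  refine ⟨Ψ, hΨ, ?_⟩
  set Hh := Ψ.range
  have hDH : ∀ k (a : (L k)ˣ), φ k (slD a) ∈ Hh := fun k a => ⟨_, hΨ k a⟩
  have hHind : ∀ (q : Γ → Prop), q 1 → (∀ k a, q (φ k (slD a))) → (∀ x y, q x → q y → q (x * y)) →
      ∀ g ∈ Hh, q g := by
    rintro q h1 h2 h3 _ ⟨c, rfl⟩
    rw [← Finset.univ_prod_mulSingle c]
    exact Finset.prod_induction _ (fun c => q (Ψ c)) (fun x y hx hy => by rw [map_mul]; exact h3 _ _ hx hy)
      (by rw [map_one]; exact h1) fun k _ => by rw [hΨ]; exact h2 k _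
  have hWsq : ∀ k, φ k slW * φ k slW ∈ Hh := fun k => by rw [← map_mul, slW_sq]; exact hDH _ _
  have hW1 : ∀ k, ∀ g ∈ Hh, φ k slW * g * (φ k slW)⁻¹ ∈ Hh := by
    intro k
    refine hHind _ (by simp) (fun k' a => ?_) fun x y hx hy => by
      rw [show φ k slW * (x * y) * (φ k slW)⁻¹ = φ k slW * x * (φ k slW)⁻¹ * (φ k slW * y * (φ k slW)⁻¹) by group]
      exact mul_mem hx hy
    set g := φ k' (slD a⁻¹) with hgdef
    obtain ⟨c, hc, hX, hY⟩ := hscale k' k a⁻¹
    obtain ⟨d, hd⟩ := (C k).conj_slW P (hp k) (T.faith k) g (fun t => ⟨_, hX t⟩) fun t => ⟨_, hY t⟩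
    have hginv : g⁻¹ = φ k' (slD a) := inv_eq_of_mul_eq_one_right (by
      rw [hgdef, ← map_mul, slD_mul, inv_mul_cancel, slD_one, map_one])
    have e : φ k slW * φ k' (slD a) * (φ k slW)⁻¹ = g⁻¹ * φ k (slD d) := by
      calc φ k slW * φ k' (slD a) * (φ k slW)⁻¹
          = g⁻¹ * (g * φ k slW * g⁻¹) * (φ k slW)⁻¹ := by rw [← hginv]; group
        _ = _ := by rw [hd]; group
    rw [e, hginv]
    exact mul_mem (hDH _ _) (hDH _ _)
  -- words
  let wd : List (Fin m) → Γ := fun ks => (ks.map fun k => φ k slW).prod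
  have wd_append : ∀ a b, wd (a ++ b) = wd a * wd b := fun a b => by simp [wd]
  have wd_cons : ∀ k b, wd (k :: b) = φ k slW * wd b := fun k b => by simp [wd]
  have hwdH : ∀ ks, ∀ g ∈ Hh, wd ks * g * (wd ks)⁻¹ ∈ Hh := by
    intro ks
    induction ks with
    | nil => intro g hg; simpa [wd] using hg
    | cons k ks ih =>
      intro g hg
      rw [wd_cons, show φ k slW * wd ks * g * (φ k slW * wd ks)⁻¹ =
        φ k slW * (wd ks * g * (wd ks)⁻¹) * (φ k slW)⁻¹ by group]
      exact hW1 k _ (ih g hg)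
  let Per : Γ → Equiv.Perm (Fin D.nroots) → Prop := fun x π =>
    ((σ x : ↥G) : GL D.Idx F) ∈ D.monomialSubgroup F ∧ ∃ η, Acts h.cert ((σ x : ↥G) : GL D.Idx F) π η
  have hPerW : ∀ k, Per (φ k slW) (orbPerm h.cert (O k)) := fun k => by
    obtain ⟨hm, η, hA⟩ := acts_slN h fr (T.ortho k)
    refine ⟨?_, η, ?_⟩ <;> rw [(C k).map_slW, coe_slN]
    exacts [hm, hA]
  have hPerMul : ∀ {x y π π'}, Per x π → Per y π' → Per (x * y) (π * π') := by
    rintro x y π π' ⟨hx, η, hA⟩ ⟨hy, η', hA'⟩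
    exact ⟨by rw [map_mul, Subgroup.coe_mul]; exact mul_mem hx hy, _,
      by rw [map_mul, Subgroup.coe_mul]; exact hA.mul hA'⟩
  have hPer1 : Per 1 1 := by
    have e : ((σ 1 : ↥G) : GL D.Idx F) = 1 := by rw [map_one, OneMemClass.coe_one]
    exact ⟨e.symm ▸ one_mem _, _, e.symm ▸ acts_one h.cert⟩
  have hPerH : ∀ g ∈ Hh, Per g 1 := by
    refine hHind _ hPer1 (fun k c => ?_) fun x y hx hy => by simpa using hPerMul hx hy
    have e : ((σ (φ k (slD c)) : ↥G) : GL D.Idx F) =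
        torusHom D F (hv fr (O k) (Units.map (L k).subtype.toMonoidHom c)) := by
      rw [(C k).map_slD, coe_slH]
      exact slH_mem_diagonal h fr (T.ortho k) (Units.map (L k).subtype.toMonoidHom c)
    exact ⟨e.symm ▸ diagonal_le_monomial (torus_mem_diagonal h _), _, e.symm ▸ acts_torus h.cert _⟩
  have hPerWd : ∀ ks, Per (wd ks) (wordPerm h.cert O ks) := by
    intro ks
    induction ks with
    | nil => simpa [wd, wordPerm] using hPer1
    | cons k ks ih => rw [wd_cons]; simpa [wordPerm] using hPerMul (hPerW k) ih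
  -- the twist keeps the orbits
  have hρorb : ∀ k, ∀ r : Fin D.nroots, D.IsPosRoot r → (r : ℕ) ∈ posOrb D (O k) →
      ((ρ r : Fin D.nroots) : ℕ) ∈ posOrb D (O k) := by
    rintro k r hr ⟨i, hi, e⟩
    obtain ⟨hm, η, hA⟩ := acts_slN h fr (T.ortho k)
    set n : ↥G := slN (T.X k) (T.Y k) 1 with hn
    rw [show slN (tx h.cert fr (O k)) (ty h.cert fr (O k)) (1 : F) = (n : GL D.Idx F) by
      rw [hn, coe_slN]; rfl] at hm hA
    have hcm : orbPerm h.cert (O k) (ρ r) = ρ (orbPerm h.cert (O k) r) := by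
      simpa using hG.perm_comm hm (hG.fix _ n.2) hA 1 r
    by_contra hns
    have h1 := hkeep k _ (hG.pos r hr) hns
    rw [hcm, show r = smp h.cert i from Fin.ext e] at h1
    obtain ⟨j, -, hj⟩ := hneg k i hi
    have h2 : D.IsNegRoot (orbPerm h.cert (O k) (smp h.cert i) : ℕ) := by
      rw [hj]; exact h.neg_isNeg (h.simple_pos j.isLt)
    exact h.pos_not_neg h1 (hG.negR _ h2)
  have hρpow : ∀ k, ∀ e : ℕ, ∀ i ∈ O k, (((ρ ^ e) (smp h.cert i) : Fin D.nroots) : ℕ) ∈ posOrb D (O k) ∧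
      D.IsPosRoot ((ρ ^ e) (smp h.cert i) : Fin D.nroots) := by
    intro k e i hi
    induction e with
    | zero => exact ⟨⟨i, hi, rfl⟩, h.simple_pos i.isLt⟩
    | succ e ih =>
      rw [pow_succ', Equiv.Perm.mul_apply]
      exact ⟨hρorb k _ ih.2 ih.1, hG.pos _ ih.2⟩
  -- transport of a fundamental reflection
  have htrans : ∀ (g : Γ) π, Per g π → ∀ k k', ∀ i ∈ O k,
      ((π (smp h.cert i) : Fin D.nroots) : ℕ) ∈ posOrb D (O k') →
      ∃ c, g * φ k slW * g⁻¹ = φ k' (slD c) * φ k' slW := by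
    rintro g π ⟨hgm, η, hA⟩ k k' i hi ⟨i', hi', e⟩
    have e' : π (smp h.cert i) = smp h.cert i' := Fin.ext e
    have hcm : ∀ (e : ℕ) r, π ((ρ ^ e) r) = (ρ ^ e) (π r) := hG.perm_comm hgm (hG.fix _ (σ g).2) hA
    have hfwd : ∀ j ∈ O k, ((π (smp h.cert j) : Fin D.nroots) : ℕ) ∈ posOrb D (O k') := fun j hj => by
      obtain ⟨n, hn⟩ := hJ.transitive _ ⟨k, rfl⟩ i hi j hj
      rw [← hn, hcm, e']
      exact (hρpow k' n i' hi').1
    have hbwd : ∀ j' ∈ O k', ∃ j ∈ O k, π (smp h.cert j) = smp h.cert j' := fun j' hj' => by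
      obtain ⟨n, hn⟩ := hJ.transitive _ ⟨k', rfl⟩ i' hi' j' hj'
      obtain ⟨j, hj, ej⟩ := (hρpow k n i hi).1
      refine ⟨j, hj, ?_⟩
      rw [show smp h.cert j = (ρ ^ n) (smp h.cert i) from Fin.ext ej.symm, hcm, e', hn]
    have hinvA : ((σ g : ↥G) : GL D.Idx F)⁻¹ ∈ D.monomialSubgroup F := inv_mem hgm
    obtain ⟨τ, θ, hB⟩ := exists_acts h hinvA
    have hτ : ∀ r, τ (π r) = r := by
      have := hB.mul hA
      rw [inv_mul_cancel] at this
      intro r
      exact Equiv.congr_fun (this.perm_eq (acts_one h.cert)) r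
    have hsets : ∀ r : Fin D.nroots, (r : ℕ) ∈ posOrb D (O k) → ((π r : Fin D.nroots) : ℕ) ∈ posOrb D (O k') := by
      rintro r ⟨j, hj, ej⟩
      rw [show r = smp h.cert j from Fin.ext ej]
      exact hfwd j hj
    have hsets' : ∀ r : Fin D.nroots, (r : ℕ) ∈ posOrb D (O k') → ((τ r : Fin D.nroots) : ℕ) ∈ posOrb D (O k) := by
      rintro r ⟨j', hj', ej⟩
      obtain ⟨j, hj, ej'⟩ := hbwd j' hj'
      rw [show r = π (smp h.cert j) by rw [ej']; exact Fin.ext ej, hτ]
      exact ⟨j, hj, rfl⟩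
    refine (C k).conj_slW_map (C k') P (hp k) (T.faith k) (T.faith k') g (fun t => ?_) (fun s => ?_) fun t => ?_
    · exact shape_pos T k' (hneg k') _ (by
        rw [Subgroup.coe_mul, Subgroup.coe_mul, Subgroup.coe_inv]
        exact hA.conj_rootsU hsets _ (tx_mem_posOrb h.cert fr _ _))
    · obtain ⟨t, ht⟩ := shape_pos T k (hneg k) ((σ g)⁻¹ * T.X k' s * σ g) (by
        rw [Subgroup.coe_mul, Subgroup.coe_mul, Subgroup.coe_inv]
        have := hB.conj_rootsU hsets' _ (tx_mem_posOrb h.cert fr (O k') (s : F))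
        rwa [inv_inv] at this)
      exact ⟨t, by rw [← ht]; group⟩
    · have hsetsN : ∀ r : Fin D.nroots, (r : ℕ) ∈ negOrb D (O k) → ((π r : Fin D.nroots) : ℕ) ∈ negOrb D (O k') := by
        rintro r ⟨j, hj, ej⟩
        obtain ⟨j', hj', ej'⟩ := hfwd j hj
        rw [show r = ngR h.cert (smp h.cert j) from Fin.ext ej, hA.neg]
        exact ⟨j', hj', congrArg D.neg ej'⟩
      obtain ⟨s, hs⟩ := T.negShape k' _ (σ g * T.Y k t * (σ g)⁻¹).2 (by
        rw [Subgroup.coe_mul, Subgroup.coe_mul, Subgroup.coe_inv]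
        exact hA.conj_rootsU hsetsN _ (ty_mem_negOrb h fr k _))
      exact ⟨s, Subtype.ext hs⟩
  -- where a word turns a root negative
  have hsplit : ∀ (ks : List (Fin m)) (r : Fin D.nroots), D.IsPosRoot r →
      ¬ D.IsPosRoot (wordPerm h.cert O ks r : Fin D.nroots) →
      ∃ pre k suf, ks = pre ++ k :: suf ∧
        ((wordPerm h.cert O suf r : Fin D.nroots) : ℕ) ∈ posOrb D (O k) := by
    intro ks
    induction ks with
    | nil => intro r hr hn; exact absurd hr (by simpa [wordPerm] using hn)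
    | cons k ks ih =>
      intro r hr hn
      by_cases hq : D.IsPosRoot (wordPerm h.cert O ks r : Fin D.nroots)
      · refine ⟨[], k, ks, rfl, ?_⟩
        by_contra hns
        exact hn (by simpa [wordPerm] using hkeep k _ hq hns)
      · obtain ⟨pre, k', suf, e, hm⟩ := ih r hr hq
        exact ⟨k :: pre, k', suf, by rw [e]; rfl, hm⟩
  have hword : ∀ n, ∀ ks : List (Fin m), ks.length = n → wordPerm h.cert O ks = 1 → wd ks ∈ Hh := by
    intro n
    induction n using Nat.strong_induction_on with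
    | _ n ih =>
    intro ks hlen hπ
    rcases List.eq_nil_or_concat ks with rfl | ⟨ks', k, rfl⟩
    · simpa [wd] using one_mem Hh
    rw [List.concat_eq_append] at hlen hπ ⊢
    obtain ⟨i₀, hi₀⟩ := List.exists_mem_of_ne_nil _ (T.ne k)
    obtain ⟨j, hj, ej⟩ := hneg k i₀ hi₀
    obtain ⟨-, η', hA'⟩ := hPerWd ks'
    have hnp : ¬ D.IsPosRoot (wordPerm h.cert O ks' (smp h.cert j) : Fin D.nroots) := by
      intro hpos
      have e1 : wordPerm h.cert O ks' (orbPerm h.cert (O k) (smp h.cert i₀)) = smp h.cert i₀ := by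
        have := Equiv.congr_fun hπ (smp h.cert i₀)
        simpa [wordPerm] using this
      rw [show orbPerm h.cert (O k) (smp h.cert i₀) = ngR h.cert (smp h.cert j) from Fin.ext ej,
        hA'.neg] at e1
      have h1 : D.IsNegRoot (ngR h.cert (wordPerm h.cert O ks' (smp h.cert j)) : Fin D.nroots) :=
        h.neg_isNeg hpos
      rw [e1] at h1
      exact h.pos_not_neg (h.simple_pos i₀.isLt) h1
    obtain ⟨pre, k', suf, rfl, hm⟩ := hsplit ks' (smp h.cert j) (h.simple_pos j.isLt) hnp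
    obtain ⟨c, hc⟩ := htrans _ _ (hPerWd suf) k k' j hj hm
    -- the shorter word
    set x := φ k' slW * φ k' (slD c) * φ k' slW
    have hx : x ∈ Hh := by
      rw [show x = φ k' slW * φ k' (slD c) * (φ k' slW)⁻¹ * (φ k' slW * φ k' slW) by simp only [x]; group]
      exact mul_mem (hW1 _ _ (hDH _ _)) (hWsq _)
    have e : wd (pre ++ k' :: suf ++ [k]) = wd pre * x * (wd pre)⁻¹ * wd (pre ++ suf) := by
      rw [wd_append, wd_append, wd_append, wd_cons, wd_cons, show wd [] = (1 : Γ) from rfl]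
      calc wd pre * (φ k' slW * wd suf) * (φ k slW * 1)
          = wd pre * φ k' slW * (wd suf * φ k slW * (wd suf)⁻¹) * wd suf := by group
        _ = _ := by rw [hc]; simp only [x]; group
    have hx' := hwdH pre x hx
    rw [e]
    refine mul_mem hx' (ih (pre ++ suf).length ?_ _ rfl ?_)
    · simp at hlen ⊢; omega
    · obtain ⟨-, η₁, h1⟩ := hPerWd (pre ++ k' :: suf ++ [k])
      obtain ⟨-, η₂, h2⟩ := hPerMul (hPerH _ hx') (hPerWd (pre ++ suf))
      rw [← e, one_mul] at h2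
      rw [h2.perm_eq h1, hπ]
  -- every element of the lift is a torus element times a word
  let M : Submonoid Γ :=
    { carrier := {g | ∃ t ∈ Hh, ∃ ks, g = t * wd ks}
      one_mem' := ⟨1, one_mem _, [], by simp [wd]⟩
      mul_mem' := by
        rintro _ _ ⟨t, ht, a, rfl⟩ ⟨t', ht', b, rfl⟩
        exact ⟨t * (wd a * t' * (wd a)⁻¹), mul_mem ht (hwdH a t' ht'), a ++ b, by rw [wd_append]; group⟩ }
  have hMinv : ∀ g ∈ M, g⁻¹ ∈ M := fun g hg => by
    have e : g⁻¹ = g ^ (orderOf g - 1) := by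
      refine inv_eq_of_mul_eq_one_right ?_
      rw [← pow_succ', Nat.sub_add_cancel (orderOf_pos g), pow_orderOf_eq_one]
    rw [e]; exact pow_mem hg _
  let MG : Subgroup Γ := { M with inv_mem' := fun {g} hg => hMinv g hg }
  have hNM : Nlift φ ≤ MG := by
    refine (Subgroup.closure_le _).2 ?_
    rintro _ ⟨k, rfl | ⟨c, rfl⟩⟩
    · exact ⟨1, one_mem _, [k], by simp [wd]⟩
    · exact ⟨_, hDH k c, [], by simp [wd]⟩
  intro w hw hw1
  obtain ⟨t, ht, ks, rfl⟩ := hNM hw
  obtain ⟨-, η₁, h1⟩ := hPerMul (hPerH t ht) (hPerWd ks)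
  rw [hw1, one_mul] at h1
  exact mul_mem ht (hword _ ks rfl (h1.perm_eq (acts_one h.cert)))

end CfsgLib.TwMult
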